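import Cfsg.Agent.Lib.RootSub.Contained

/-! The line spanned by a root subgroup and a commutator root subgroup. (helper6) -/

set_option autoImplicit false
set_option linter.unusedSectionVars false

namespace CfsgLib.RootSub.CommutatorLine

open Cfsg Subgroup
open scoped commutatorElement

variable {G : Type*} [Group G] {S : Set (Subgroup G)}

theorem partner {A : Subgroup G} (hA : ¬ IsIsolatedIn (FAdj S) S A) (hAS : A ∈ S) :
    ∃ E ∈ S, IsRankOnePair A E := by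
  by_contra hcon
  push Not at hcon
  exact hA ⟨hAS, fun E => ⟨fun hadj => hcon E hadj.2.1 hadj.2.2,
    fun hadj => hcon E hadj.1 (RankOnePair_symm hadj.2.2)⟩⟩

theorem conj_inf (hS : IsRootSubgroupSet S) {A D F : Subgroup G} (hD : D ∈ S) (h : IsRankOnePair A D) (g : G)
    (hF : F ∈ S) {x : G} (hx : x ∈ conjBy A g) (hxF : x ∈ F) (hx1 : x ≠ 1) : F = conjBy A g := by
  rw [mem_conjBy] at hx
  have hxF' : g⁻¹ * x * g ∈ conjBy F g⁻¹ := mem_conjBy.mpr (by simpa [mul_assoc] using hxF)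
  rcases inf_eq_bot_or_eq hS hD (hS.conj_mem F hF g⁻¹) h with e | e
  · exfalso
    have hm : g⁻¹ * x * g ∈ A ⊓ conjBy F g⁻¹ := mem_inf.mpr ⟨hx, hxF'⟩
    rw [e, mem_bot] at hm
    exact hx1 (by rw [show x = g * (g⁻¹ * x * g) * g⁻¹ by group, hm]; group)
  · rw [e, conjBy_self_inv]

/-- A commutator in `S` rules out a rank one pair. -/
theorem not_pair (hS : IsRootSubgroupSet S) {A B : Subgroup G} (hA : A ∈ S) (hB : B ∈ S) (hC : ⁅A, B⁆ ∈ S) :
    ¬ IsRankOnePair A B := by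
  intro h
  obtain ⟨C, hCdef⟩ : ∃ C, C = ⁅A, B⁆ := ⟨_, rfl⟩
  rw [← hCdef] at hC
  have hAn : A ≤ normalizer (C : Set G) := hCdef ▸ Subgroup.normalizer_commutator_ge_left A B
  have hBn : B ≤ normalizer (C : Set G) := hCdef ▸ Subgroup.normalizer_commutator_ge_right A B
  have hCle : C ≤ A ⊔ B := hCdef ▸ commutator_le.mpr fun a ha b hb => by
    rw [commutatorElement_def]
    exact mul_mem (mul_mem (mul_mem (mem_sup_left ha) (mem_sup_right hb)) (inv_mem (mem_sup_left ha)))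
      (inv_mem (mem_sup_right hb))
  have hcent : ∀ {A B : Subgroup G}, A ∈ S → B ∈ S → IsRankOnePair A B → A ≤ normalizer (C : Set G) →
      C ≤ A ⊔ B → ⁅A, C⁆ = ⊥ := by
    intro A B hA hB h hAn hCle
    rcases hS.pair A hA C hC with h1 | h1 | h1
    · exact h1
    · exfalso
      obtain ⟨a, ha, ha1⟩ := exists_ne_one (A_ne_bot h)
      have := mem_inf.mpr ⟨ha, hAn ha⟩
      rw [A_inf_normalizer h1, mem_bot] at this
      exact ha1 this
    · exfalso
      have hDle : ⁅A, C⁆ ≤ C := commutator_le.mpr fun a ha c hc => by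
        rw [commutatorElement_def]
        exact mul_mem ((mem_normalizer_iff.mp (hAn ha) c).mp hc) (inv_mem hc)
      have hDA : ⁅⁅A, C⁆, A⁆ = ⊥ := commutator_eq_bot_iff_le_centralizer.mpr fun l hl =>
        mem_centralizer_iff.mpr fun a ha => (h1.2.1 l hl a (mem_sup_left ha)).symm
      rcases eq_or_central hS hA hB h h1.1 (hDle.trans hCle) hDA with e | hz
      · apply hS.ne_bot _ h1.1
        rw [commutator_eq_bot_iff_le_centralizer]
        exact fun a ha => mem_centralizer_iff.mpr fun c hc => mul_comm_of_commutative hS hC hc (hDle (e.symm ▸ ha))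
      · apply hS.ne_bot _ h1.1
        rw [eq_bot_iff, commutator_le]
        intro a ha c hc
        rw [mem_bot]
        rcases eq_or_ne a 1 with rfl | ha1
        · exact commutatorElement_one_left c
        have hzm : ⁅c, a⁆ ∈ ⁅A, C⁆ := by rw [Subgroup.commutator_comm]; exact commutator_mem_commutator hc ha
        have := eq_of_mul_mem hS hB (hS.conj_mem A hA c) h (z := ⁅c, a⁆) (a := a)
          (fun x hx => hz _ hzm x (mem_sup_left hx)) (fun x hx => hz _ hzm x (mem_sup_right hx)) ha ha1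
          (mem_conjBy.mpr (by rw [commutatorElement_def]; simpa [mul_assoc] using ha))
        rw [← commutatorElement_inv, this.2, inv_one]
  have hA0 := hcent hA hB h hAn hCle
  have hB0 := hcent hB hA (RankOnePair_symm h) hBn (sup_comm A B ▸ hCle)
  obtain ⟨a, ha, ha1⟩ := exists_ne_one (A_ne_bot h)
  refine not_centralizes h ha ha1 fun x hx y hy => ?_
  have hm : ⁅a, x⁆ ∈ C := hCdef ▸ commutator_mem_commutator ha hx
  have h1 : ⁅a, x⁆ * y = y * ⁅a, x⁆ := (commute_of_bracket hB0 hy hm).symm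
  have h2 : x * y = y * x := mul_comm_of_commutative hS hB hx hy
  rw [show a * x * a⁻¹ = ⁅a, x⁆ * x by rw [commutatorElement_def]; group, mul_assoc, h2, ← mul_assoc, h1, mul_assoc]

theorem case_of_mem (hS : IsRootSubgroupSet S) {A B : Subgroup G} (hA : A ∈ S) (hB : B ∈ S) (hC : ⁅A, B⁆ ∈ S) :
    RootCommutatorCase S A B := by
  rcases hS.pair A hA B hB with h | h | h
  · exact absurd h (hS.ne_bot _ hC)
  · exact absurd h (not_pair hS hA hB hC)
  · exact h

section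

variable {A B : Subgroup G} (hS : IsRootSubgroupSet S) (hAS : A ∈ S) (hA : ¬ IsIsolatedIn (FAdj S) S A)
  (hc : RootCommutatorCase S A B)
include hS hAS hA hc

theorem ne_comm : ∀ x ∈ A, x ∈ ⁅A, B⁆ → x = 1 := by
  intro x hx hxC
  obtain ⟨E, hE, hp⟩ := partner hA hAS
  rcases inf_eq_bot_or_eq hS hE hc.1 hp with e | e
  · rw [← mem_bot, ← e]; exact mem_inf.mpr ⟨hx, hxC⟩
  · exfalso
    apply hS.ne_bot _ hc.1
    refine commutator_eq_bot_iff_le_centralizer.mpr fun a ha => mem_centralizer_iff.mpr fun b hb => ?_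
    exact (hc.2.1 a (e ▸ ha) b (mem_sup_right hb)).symm

theorem mem_comm {a b : G} (ha : a ∈ A) (hb : b ∈ B) : a⁻¹ * b⁻¹ * a * b ∈ ⁅A, B⁆ := by
  have := commutator_mem_commutator (inv_mem ha) (inv_mem hb)
  rwa [commutatorElement_def, inv_inv, inv_inv] at this

theorem hom_mul {a b b' : G} (ha : a ∈ A) (hb : b ∈ B) (hb' : b' ∈ B) :
    a⁻¹ * (b * b')⁻¹ * a * (b * b') = (a⁻¹ * b⁻¹ * a * b) * (a⁻¹ * b'⁻¹ * a * b') := by
  have hm := hc.2.1 _ (mem_comm hS hAS hA hc ha hb) b' (mem_sup_right hb')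
  have hm' := hc.2.1 _ (mem_comm hS hAS hA hc ha hb) (a⁻¹ * b'⁻¹ * a)
    (mul_mem (mul_mem (inv_mem (mem_sup_left ha)) (inv_mem (mem_sup_right hb'))) (mem_sup_left ha))
  calc a⁻¹ * (b * b')⁻¹ * a * (b * b') = (a⁻¹ * b'⁻¹ * a) * (a⁻¹ * b⁻¹ * a * b) * b' := by group
    _ = (a⁻¹ * b⁻¹ * a * b) * (a⁻¹ * b'⁻¹ * a) * b' := by rw [hm']
    _ = _ := by group

theorem hom_inj {a b : G} (ha : a ∈ A) (ha1 : a ≠ 1) (hb : b ∈ B) (e : a⁻¹ * b⁻¹ * a * b = 1) : b = 1 := by
  by_contra hb1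
  obtain ⟨E, hE, hp⟩ := partner hA hAS
  have hab : b⁻¹ * a * b = a := by
    calc b⁻¹ * a * b = a * (a⁻¹ * b⁻¹ * a * b) := by group
      _ = a := by rw [e, mul_one]
  have hfix : conjBy A b = A := (conj_inf hS hE hp b hAS (x := a) (mem_conjBy.mpr (hab.symm ▸ ha)) ha ha1).symm
  apply hS.ne_bot _ hc.1
  rw [← hc.2.2.2 b hb hb1, closure_eq_bot_iff]
  rintro _ ⟨x, hx, rfl⟩
  refine ne_comm hS hAS hA hc _ ?_ (by simpa [commutatorElement_def] using commutator_mem_commutator hx hb)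
  have h1 : b * x⁻¹ * b⁻¹ ∈ A := by
    rw [← hfix, mem_conjBy]; simpa [mul_assoc] using inv_mem hx
  simpa [mul_assoc] using mul_mem hx h1

/-- The map `b ↦ [a, b]` as a homomorphism. -/
def hom {a : G} (ha : a ∈ A) : B →* (⁅A, B⁆ : Subgroup G) :=
  MonoidHom.mk' (fun b => ⟨a⁻¹ * (b : G)⁻¹ * a * b, mem_comm hS hAS hA hc ha b.2⟩)
    fun b b' => Subtype.ext (hom_mul hS hAS hA hc ha b.2 b'.2)

theorem hom_bijective {a : G} (ha : a ∈ A) (ha1 : a ≠ 1) : Function.Bijective (hom hS hAS hA hc ha) := by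
  refine ⟨(injective_iff_map_eq_one _).mpr fun b hb => Subtype.ext (hom_inj hS hAS hA hc ha ha1 b.2
    (congrArg Subtype.val hb)), ?_⟩
  rw [← MonoidHom.range_eq_top]
  apply Subgroup.map_injective (⁅A, B⁆ : Subgroup G).subtype_injective
  rw [← MonoidHom.range_eq_map, Subgroup.range_subtype]
  refine le_antisymm (by rintro _ ⟨x, -, rfl⟩; exact x.2) ?_
  conv_lhs => rw [← hc.2.2.1 a⁻¹ (inv_mem ha) (inv_ne_one.mpr ha1)]
  rw [closure_le]
  rintro _ ⟨b, hb, rfl⟩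
  exact ⟨hom hS hAS hA hc ha ⟨b⁻¹, inv_mem hb⟩, ⟨_, rfl⟩, by simp [hom]⟩

theorem conj_le {b : G} (hb : b ∈ B) : conjBy A b ≤ A ⊔ ⁅A, B⁆ := by
  intro x hx
  rw [mem_conjBy] at hx
  have h1 : b * (b⁻¹ * x * b) * b⁻¹ * (b⁻¹ * x * b)⁻¹ ∈ ⁅A, B⁆ := by
    rw [Subgroup.commutator_comm]
    simpa [commutatorElement_def] using commutator_mem_commutator hb hx
  have h2 := mul_mem (mem_sup_right (S := A) h1) (mem_sup_left (T := ⁅A, B⁆) hx)
  rw [inv_mul_cancel_right] at h2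
  simpa [mul_assoc] using h2

theorem decompose {x : G} (hx : x ∈ A ⊔ ⁅A, B⁆) :
    x ∈ ⁅A, B⁆ ∨ ∃ b ∈ B, x ∈ conjBy A b := by
  have hn : A ≤ normalizer ((⁅A, B⁆ : Subgroup G) : Set G) := Subgroup.normalizer_commutator_ge_left A B
  rw [← SetLike.mem_coe, coe_mul_of_left_le_normalizer_right A _ hn] at hx
  obtain ⟨a, ha, c, hc', rfl⟩ := hx
  rcases eq_or_ne a 1 with rfl | ha1
  · left; simpa using hc'
  right
  obtain ⟨b, hb⟩ := (hom_bijective hS hAS hA hc ha ha1).2 ⟨c, hc'⟩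
  have hb' : a⁻¹ * (b : G)⁻¹ * a * b = c := congrArg Subtype.val hb
  refine ⟨(b : G)⁻¹, inv_mem b.2, mem_conjBy.mpr ?_⟩
  show (b : G)⁻¹⁻¹ * (a * c) * (b : G)⁻¹ ∈ A
  rw [← hb']
  simpa [mul_assoc] using ha

end

end CfsgLib.RootSub.CommutatorLine
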