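import Cfsg.Agent.Lib.RootSub.RootSet

/-! A rank one pair of root subgroups inside another one. -/

set_option autoImplicit false

namespace CfsgLib.RootSub

open Cfsg Subgroup
open scoped commutatorElement

variable {G : Type*} [Group G] {S : Set (Subgroup G)} {C D : Subgroup G}

theorem central_of_centralizes (hS : IsRootSubgroupSet S) (hC : C ∈ S) (h : IsRankOnePair C D) {x : G}
    (hx : x ∈ C ⊔ D) (hxC : ∀ c ∈ C, x * c = c * x) :
    ∃ c ∈ C, ∀ y ∈ C ⊔ D, (c⁻¹ * x) * y = y * (c⁻¹ * x) := by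
  have hne : conjBy D x ≠ C := fun e => by
    apply h.ne
    refine (conjBy_inj (g := x) (e.trans ?_)).symm
    exact (mem_normalizer_iff_conjBy.mp (mem_normalizer_of_commute hxC)).symm
  obtain ⟨c, hc, e⟩ :=
    ((unipotent_eq h).mp (conj_mem_unipotent h (B_mem_unipotent h) hx)).resolve_left hne
  refine ⟨c, hc, ?_⟩
  obtain ⟨z, hzdef⟩ : ∃ z, z = c⁻¹ * x := ⟨_, rfl⟩
  rw [← hzdef]
  have hzX : z ∈ C ⊔ D := hzdef ▸ mul_mem (inv_mem (mem_sup_left hc)) hx
  have hzC : ∀ y ∈ C, z * y = y * z := fun y hy => by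
    rw [hzdef]
    exact ((show Commute c y from mul_comm_of_commutative hS hC hc hy).inv_left.mul_left (hxC y hy))
  have hzN : z ∈ normalizer (D : Set G) :=
    mem_normalizer_iff_conjBy.mpr (by rw [hzdef, ← conjBy_conjBy, e, conjBy_inv_self])
  have f1 : ∀ {E : Subgroup G}, E ∈ unipotentSubgroups C D → conjBy E z = E := fun hE => fix_all h hzC hzN hE
  have f2 : ∀ {E : Subgroup G}, E ∈ unipotentSubgroups C D → conjBy E z⁻¹ = E := fun hE => by
    conv_lhs => rw [← f1 hE, conjBy_inv_self]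
  have hzD : ∀ y ∈ D, y * z = z * y := by
    intro y hy
    have hd : z * y * z⁻¹ * y⁻¹ ∈ D ⊓ normalizer (C : Set G) := by
      refine mem_inf.mpr ⟨mul_mem ((mem_normalizer_iff.mp hzN y).mp hy) (inv_mem hy), ?_⟩
      refine mem_normalizer_iff_conjBy.mpr ?_
      have h2 : conjBy C y⁻¹ ∈ unipotentSubgroups C D :=
        conj_mem_unipotent h (A_mem_unipotent h) (inv_mem (mem_sup_right hy))
      rw [← conjBy_conjBy C y⁻¹, ← conjBy_conjBy _ z⁻¹, f2 h2, ← conjBy_conjBy _ y, conjBy_self_inv,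
        f1 (A_mem_unipotent h)]
    rw [B_inf_normalizer h, mem_bot] at hd
    calc y * z = (z * y * z⁻¹ * y⁻¹) * (y * z) := by rw [hd, one_mul]
      _ = z * y := by group
  intro y hy
  have hle : C ⊔ D ≤ centralizer ({z} : Set G) :=
    sup_le (fun w hw => mem_centralizer_singleton_iff.mpr (hzC w hw).symm)
      fun w hw => mem_centralizer_singleton_iff.mpr (hzD w hw)
  exact (mem_centralizer_singleton_iff.mp (hle hy)).symm

theorem eq_or_central (hS : IsRootSubgroupSet S) (hC : C ∈ S) (hD : D ∈ S) (h : IsRankOnePair C D)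
    {F : Subgroup G} (hF : F ∈ S) (hle : F ≤ C ⊔ D) (hcm : ⁅F, C⁆ = ⊥) :
    F = C ∨ ∀ f ∈ F, ∀ y ∈ C ⊔ D, f * y = y * f := by
  by_cases hFC : F = C
  · exact Or.inl hFC
  refine Or.inr fun f hf y hy => ?_
  obtain ⟨c, hc, hz⟩ := central_of_centralizes hS hC h (hle hf) (fun c hc => commute_of_bracket hcm hf hc)
  rcases eq_or_ne c 1 with rfl | hc1
  · simpa using hz y hy
  · exfalso
    refine hFC (eq_of_mul_mem hS hD hF h (z := c⁻¹ * f) (a := c) (fun w hw => hz w (mem_sup_left hw))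
      (fun w hw => hz w (mem_sup_right hw)) hc hc1 ?_).1
    have hcf : f * c = c * f := commute_of_bracket hcm hf hc
    rw [show c⁻¹ * f * c = f by rw [mul_assoc, hcf, inv_mul_cancel_left]]
    exact hf

theorem commute_or_mem (hS : IsRootSubgroupSet S) (hC : C ∈ S) (hD : D ∈ S) (h : IsRankOnePair C D)
    {F : Subgroup G} (hF : F ∈ S) (hle : F ≤ C ⊔ D) :
    ⁅F, C⁆ = ⊥ ∨ F ∈ unipotentSubgroups C D := by
  rcases hS.pair F hF C hC with h1 | h1 | h1
  · exact Or.inl h1
  · obtain ⟨f, hf, hf1⟩ := exists_ne_one (A_ne_bot h1)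
    obtain ⟨c, hc, -, e⟩ := h1.cond_left f hf hf1
    refine Or.inr ?_
    rw [← conjBy_self_inv F c, e]
    exact conj_mem_unipotent h (conj_mem_unipotent h (A_mem_unipotent h) (inv_mem (hle hf))) (mem_sup_left hc)
  · left
    obtain ⟨L, hL⟩ : ∃ L, L = ⁅F, C⁆ := ⟨_, rfl⟩
    have hLS : L ∈ S := hL ▸ h1.1
    have hLle : L ≤ C ⊔ D := hL ▸ commutator_le.mpr fun f hf c hc => by
      rw [commutatorElement_def]
      exact mul_mem (mul_mem (mul_mem (hle hf) (mem_sup_left hc)) (inv_mem (hle hf)))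
        (inv_mem (mem_sup_left hc))
    have hLC : ⁅L, C⁆ = ⊥ := commutator_eq_bot_iff_le_centralizer.mpr fun l hl =>
      mem_centralizer_iff.mpr fun c hc => (h1.2.1 l (hL ▸ hl) c (mem_sup_right hc)).symm
    rcases eq_or_central hS hC hD h hLS hLle hLC with hLeq | hcen
    · exact commutator_eq_bot_iff_le_centralizer.mpr fun f hf => mem_centralizer_iff.mpr fun c hc =>
        h1.2.1 c (by rw [← hL, hLeq]; exact hc) f (mem_sup_left hf)
    · refine commutator_eq_bot_iff_le_centralizer.mpr fun f hf => mem_centralizer_iff.mpr fun c hc => ?_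
      have hzc : ⁅f, c⁆ ∈ L := hL ▸ commutator_mem_commutator hf hc
      have hfix : conjBy C f = C := by
        by_contra hne
        obtain ⟨c₁, hc₁, e⟩ := ((unipotent_eq h).mp
          (conj_mem_unipotent h (A_mem_unipotent h) (hle hf))).resolve_left hne
        obtain ⟨d, hd, hd1⟩ := exists_ne_one (A_ne_bot (RankOnePair_symm h))
        refine not_commute_of_pair (RankOnePair_symm h) hd hd1 fun w hw => ?_
        have hmem : c₁ * d * c₁⁻¹ ∈ conjBy C f := by
          rw [e, mem_conjBy]; simpa [mul_assoc] using hd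
        rw [mem_conjBy] at hmem
        obtain ⟨u, hu⟩ : ∃ u, u = f⁻¹ * (c₁ * d * c₁⁻¹) * f := ⟨_, rfl⟩
        rw [← hu] at hmem
        have h4 : Commute (c₁ * d * c₁⁻¹) w := by
          have e5 : c₁ * d * c₁⁻¹ = ⁅f, u⁆ * u := by
            rw [commutatorElement_def, inv_mul_cancel_right, hu]; group
          rw [e5]
          refine Commute.mul_left ?_ (mul_comm_of_commutative hS hC hmem hw)
          exact hcen _ (hL ▸ commutator_mem_commutator hf hmem) w (mem_sup_left hw)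
        have h5 := h4.map (MulAut.conj c₁⁻¹).toMonoidHom
        have h6 : c₁⁻¹ * w * c₁ = w := by
          rw [mul_assoc, mul_comm_of_commutative hS hC hw hc₁, inv_mul_cancel_left]
        simp only [MulEquiv.coe_toMonoidHom, MulAut.conj_apply, inv_inv, h6] at h5
        rw [show c₁⁻¹ * (c₁ * d * c₁⁻¹) * c₁ = d by group] at h5
        exact h5
      have hzC : ⁅f, c⁆ ∈ C ⊓ normalizer (D : Set G) := by
        refine mem_inf.mpr ⟨?_, mem_normalizer_of_commute fun w hw => hcen _ hzc w (mem_sup_right hw)⟩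
        rw [commutatorElement_def]
        exact mul_mem ((mem_normalizer_iff.mp (mem_normalizer_iff_conjBy.mpr hfix) c).mp hc) (inv_mem hc)
      rw [A_inf_normalizer h, mem_bot] at hzC
      exact (commutatorElement_eq_one_iff_commute.mp hzC).symm

theorem mem_unipotent_of_le (hS : IsRootSubgroupSet S) (hC : C ∈ S) (hD : D ∈ S) (h : IsRankOnePair C D)
    {F E : Subgroup G} (hF : F ∈ S) (hFE : IsRankOnePair F E) (hle : F ≤ C ⊔ D) (hEle : E ≤ C ⊔ D) :
    F ∈ unipotentSubgroups C D := by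
  rcases commute_or_mem hS hC hD h hF hle with h1 | h1
  · rcases eq_or_central hS hC hD h hF hle h1 with rfl | hcen
    · exact A_mem_unipotent h
    · obtain ⟨f, hf, hf1⟩ := exists_ne_one (A_ne_bot hFE)
      exact (not_commute_of_pair hFE hf hf1 fun e he => hcen f hf e (hEle he)).elim
  · exact h1

theorem contained (hS : IsRootSubgroupSet S) (hC : C ∈ S) (hD : D ∈ S) (h : IsRankOnePair C D)
    {A B : Subgroup G} (hA : A ∈ S) (hB : B ∈ S) (hAB : IsRankOnePair A B) (hle : A ⊔ B ≤ C ⊔ D) :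
    A ⊔ B = C ⊔ D ∧ C ∈ unipotentSubgroups A B ∧ D ∈ unipotentSubgroups A B := by
  have hAle : A ≤ C ⊔ D := le_trans le_sup_left hle
  have hBle : B ≤ C ⊔ D := le_trans le_sup_right hle
  obtain ⟨x, hx, e1, e2⟩ := two_transitive_std h (mem_unipotent_of_le hS hC hD h hA hAB hAle hBle)
    (mem_unipotent_of_le hS hC hD h hB (RankOnePair_symm hAB) hBle hAle) hAB.ne
  have heq : A ⊔ B = C ⊔ D := by
    have h1 : conjBy (C ⊔ D) x = C ⊔ D := conjBy_of_mem hx
    rw [← e1, ← e2, ← Subgroup.map_sup]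
    exact h1
  refine ⟨heq, ⟨x⁻¹, heq ▸ inv_mem hx, by rw [← e1, conjBy_inv_self]⟩, ?_⟩
  obtain ⟨y, hy, ey⟩ := B_mem_unipotent hAB
  exact ⟨x⁻¹ * y, mul_mem (heq ▸ inv_mem hx) hy, by rw [← conjBy_conjBy, ← ey, ← e2, conjBy_inv_self]⟩

end CfsgLib.RootSub
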