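import Cfsg.Agent.Lib.RootSub.CommutatorLine

/-! A member on the line of two commuting root subgroups stays in the component. (helper6) -/

set_option autoImplicit false
set_option linter.unusedSectionVars false

namespace CfsgLib.RootSub.LineComponent

open Cfsg Subgroup CfsgLib.RootSub CfsgLib.RootSub.CommutatorLine
open scoped commutatorElement

variable {G : Type*} [Group G] {S : Set (Subgroup G)}

theorem conj_cond {A B : Subgroup G} (h : RankOneCondition A B) (g : G) :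
    RankOneCondition (conjBy A g) (conjBy B g) := by
  intro x hx hx1
  obtain ⟨a, ha, rfl⟩ := hx
  obtain ⟨b, hb, hb1, e⟩ := h a ha (fun e0 => hx1 (by rw [e0]; exact map_one _))
  refine ⟨g * b * g⁻¹, ⟨b, hb, rfl⟩, fun e0 => hb1 ?_, ?_⟩
  · calc b = g⁻¹ * (g * b * g⁻¹) * g := by group
      _ = 1 := by rw [e0]; group
  · show conjBy (conjBy A g) (g * b * g⁻¹)⁻¹ = conjBy (conjBy B g) (g * a * g⁻¹)⁻¹
    rw [conjBy_conjBy, conjBy_conjBy, show (g * b * g⁻¹)⁻¹ * g = g * b⁻¹ by group,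
      show (g * a * g⁻¹)⁻¹ * g = g * a⁻¹ by group, ← conjBy_conjBy A b⁻¹ g, ← conjBy_conjBy B a⁻¹ g, e]

theorem conj_pair {A B : Subgroup G} (h : IsRankOnePair A B) (g : G) :
    IsRankOnePair (conjBy A g) (conjBy B g) := by
  haveI := h.nilpotent_left
  haveI := h.nilpotent_right
  exact ⟨fun e => h.ne (conjBy_inj e),
    Group.nilpotent_of_surjective _ ((MulAut.conj g).toMonoidHom.subgroupMap_surjective A),
    Group.nilpotent_of_surjective _ ((MulAut.conj g).toMonoidHom.subgroupMap_surjective B),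
    conj_cond h.cond_left g, conj_cond h.cond_right g⟩

theorem surj (hS : IsRootSubgroupSet S) {A B : Subgroup G} (hAS : A ∈ S) (hA : ¬ IsIsolatedIn (FAdj S) S A)
    (hc : RootCommutatorCase S A B) {x : G} (hx : x ∈ A) (hx1 : x ≠ 1) {d : G} (hd : d ∈ ⁅A, B⁆) :
    ∃ y ∈ B, x * y * x⁻¹ * y⁻¹ = d := by
  obtain ⟨⟨y, hy⟩, e⟩ := (hom_bijective hS hAS hA hc (inv_mem hx) (inv_ne_one.mpr hx1)).2 ⟨d, hd⟩
  refine ⟨y⁻¹, inv_mem hy, ?_⟩
  have e' : (x⁻¹)⁻¹ * y⁻¹ * x⁻¹ * y = d := congrArg Subtype.val e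
  rw [inv_inv] at e'
  rw [inv_inv]
  exact e'

theorem not_isolated {A B : Subgroup G} (hA : A ∈ S) (hB : B ∈ S) (h : IsRankOnePair A B) :
    ¬ IsIsolatedIn (FAdj S) S A :=
  fun hi => (hi.2 B).1 ⟨hA, hB, h⟩

theorem comm_mem {A B : Subgroup G} {x y : G} (hx : x ∈ A) (hy : y ∈ B) : x * y * x⁻¹ * y⁻¹ ∈ ⁅A, B⁆ := by
  have := commutator_mem_commutator hx hy
  rwa [commutatorElement_def] at this

theorem reach (hS : IsRootSubgroupSet S) {A B A' C : Subgroup G} (hA : A ∈ S) (hB : B ∈ S) (hA' : A' ∈ S)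
    (hp : IsRankOnePair A A') (hAB : ⁅A, B⁆ = ⊥) (hnp : ¬ IsRankOnePair A' B) (hC : C ∈ S)
    {a b : G} (ha : a ∈ A) (ha1 : a ≠ 1) (hb : b ∈ B) (hb1 : b ≠ 1) (hab : a * b ∈ C) :
    Relation.ReflTransGen (FAdj S) A C := by
  have step : Relation.ReflTransGen (FAdj S) A A' := .single ⟨hA, hA', hp⟩
  have hAi := not_isolated hA hA' hp
  have hA'i := not_isolated hA' hA (RankOnePair_symm hp)
  have hcA : ∀ x ∈ A, ∀ y ∈ B, x * y = y * x := fun x hx y hy => commute_of_bracket hAB hx hy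
  rcases hS.pair A' hA' B hB with h | h | hc
  · obtain ⟨e, -⟩ := eq_of_mul_mem hS hA' hC hp (z := b) (fun x hx => (hcA x hx b hb).symm)
      (fun x hx => (commute_of_bracket h hx hb).symm) ha ha1 ((hcA a ha b hb) ▸ hab)
    exact e ▸ Relation.ReflTransGen.refl
  · exact absurd h hnp
  obtain ⟨D, hDdef⟩ : ∃ D, D = ⁅A', B⁆ := ⟨_, rfl⟩
  have hDS : D ∈ S := hDdef ▸ hc.1
  have hDA' : ∀ d ∈ D, ∀ x ∈ A', d * x = x * d := fun d hd x hx => hc.2.1 d (hDdef ▸ hd) x (mem_sup_left hx)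
  have hDB : ∀ d ∈ D, ∀ x ∈ B, d * x = x * d := fun d hd x hx => hc.2.1 d (hDdef ▸ hd) x (mem_sup_right hx)
  rcases hS.pair A hA D hDS with hAD | hAD | hAD
  · rcases hS.pair A' hA' C hC with h | h | h
    swap
    · exact step.tail ⟨hA', hC, h⟩
    all_goals
      exfalso
      refine not_centralizes hp ha ha1 fun x hx y hy => ?_
      have he : (a * b * x * (a * b)⁻¹ * x⁻¹) * y = y * (a * b * x * (a * b)⁻¹ * x⁻¹) := by
        first
        | (have e1 : a * b * x * (a * b)⁻¹ * x⁻¹ = 1 := by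
             rw [(commute_of_bracket h hx hab).symm]; group
           rw [e1, one_mul, mul_one])
        | (have e1 : a * b * x * (a * b)⁻¹ * x⁻¹ = (x * (a * b) * x⁻¹ * (a * b)⁻¹)⁻¹ := by group
           rw [e1]
           exact h.2.1 _ (inv_mem (comm_mem hx hab)) y (mem_sup_left hy))
      set e := a * b * x * (a * b)⁻¹ * x⁻¹ with hedef
      have hd : b * x * b⁻¹ * x⁻¹ ∈ D := by
        rw [hDdef, commutator_comm]; exact comm_mem hb hx
      have had : a * (b * x * b⁻¹ * x⁻¹) = (b * x * b⁻¹ * x⁻¹) * a := commute_of_bracket hAD ha hd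
      have e2 : a * x * a⁻¹ = (b * x * b⁻¹ * x⁻¹)⁻¹ * e * x := by
        rw [hedef]
        calc a * x * a⁻¹ = (b * x * b⁻¹ * x⁻¹)⁻¹ * ((b * x * b⁻¹ * x⁻¹) * a) * x * a⁻¹ := by group
          _ = (b * x * b⁻¹ * x⁻¹)⁻¹ * (a * (b * x * b⁻¹ * x⁻¹)) * x * a⁻¹ := by rw [had]
          _ = _ := by group
      rw [e2]
      have c1 : Commute (b * x * b⁻¹ * x⁻¹)⁻¹ y := hDA' _ (inv_mem hd) y hy
      have c2 : Commute e y := he
      have c3 : Commute x y := mul_comm_of_commutative hS hA' hx hy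
      exact ((c1.mul_left c2).mul_left c3).eq
  · exfalso
    exact hb1 (eq_of_mul_mem hS hDS hC hAD (z := b) (fun x hx => (hcA x hx b hb).symm)
      (fun x hx => (hDB x hx b hb).symm) ha ha1 ((hcA a ha b hb) ▸ hab)).2
  obtain ⟨F, hFdef⟩ : ∃ F, F = ⁅A, D⁆ := ⟨_, rfl⟩
  have hFS : F ∈ S := hFdef ▸ hAD.1
  have hFA : ∀ f ∈ F, ∀ x ∈ A, f * x = x * f := fun f hf x hx => hAD.2.1 f (hFdef ▸ hf) x (mem_sup_left hx)
  have hFD : ∀ f ∈ F, ∀ x ∈ D, f * x = x * f := fun f hf x hx => hAD.2.1 f (hFdef ▸ hf) x (mem_sup_right hx)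
  have hFB : ∀ f ∈ F, ∀ y ∈ B, f * y = y * f := by
    intro f hf y hy
    have hle : F ≤ Subgroup.centralizer ({y} : Set G) := hFdef ▸ commutator_le.mpr fun x hx d hd => by
      rw [commutatorElement_def]
      have h1 : x ∈ Subgroup.centralizer ({y} : Set G) := mem_centralizer_singleton_iff.mpr (hcA x hx y hy)
      have h2 : d ∈ Subgroup.centralizer ({y} : Set G) := mem_centralizer_singleton_iff.mpr (hDB d hd y hy)
      exact mul_mem (mul_mem (mul_mem h1 h2) (inv_mem h1)) (inv_mem h2)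
    exact mem_centralizer_singleton_iff.mp (hle hf)
  obtain ⟨c₀, hc₀, hc₀1, hcond⟩ := hp.cond_left a⁻¹ (inv_mem ha) (inv_ne_one.mpr ha1)
  rw [inv_inv] at hcond
  set c := c₀⁻¹
  have hc' : c ∈ A' := inv_mem hc₀
  have hc1 : c ≠ 1 := inv_ne_one.mpr hc₀1
  obtain ⟨a', ha', ha'1⟩ := exists_ne_one (hS.ne_bot A' hA')
  have KEY : ∀ d ∈ D, ∃ ψ ∈ F, c * ψ * c⁻¹ * ψ⁻¹ = d := by
    intro d hd
    by_cases hd1 : d = 1
    · exact ⟨1, one_mem _, by rw [hd1]; group⟩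
    obtain ⟨y, hy, hyd⟩ := surj hS hA' hA'i hc ha' ha'1 (hDdef ▸ hd)
    set φ := a * d * a⁻¹ * d⁻¹ with hφdef
    have hφ : φ ∈ F := hFdef ▸ comm_mem ha hd
    have hφ1 : φ ≠ 1 := by
      intro e
      refine hd1 (hom_inj hS hA hAi hAD ha ha1 hd ?_)
      have e' : a * d = d * a := by
        calc a * d = φ * (d * a) := by rw [hφdef]; group
          _ = d * a := by rw [e, one_mul]
      calc a⁻¹ * d⁻¹ * a * d = a⁻¹ * d⁻¹ * (a * d) := by group
        _ = a⁻¹ * d⁻¹ * (d * a) := by rw [e']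
        _ = 1 := by group
    set x := c⁻¹ * (a * a' * a⁻¹) * c with hxdef
    have hx : x ∈ A := by
      have h1 : a * a' * a⁻¹ ∈ conjBy A c := hcond ▸ ⟨a', ha', rfl⟩
      exact mem_conjBy.mp h1
    set δ := y⁻¹ * c⁻¹ * y * c with hδdef
    have hδ : δ ∈ D := by
      rw [hDdef, commutator_comm]
      simpa using comm_mem (inv_mem hy) (inv_mem hc')
    set ψ := x * δ * x⁻¹ * δ⁻¹ with hψdef
    have hψ : ψ ∈ F := hFdef ▸ comm_mem hx hδ
    have e1 : c * ψ * c⁻¹ = φ * d := by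
      have ey : a * y = y * a := hcA a ha y hy
      have ey' : a⁻¹ * y = y * a⁻¹ := hcA _ (inv_mem ha) y hy
      have ex : x * y = y * x := hcA x hx y hy
      calc c * ψ * c⁻¹ = c * (ψ * y) * y⁻¹ * c⁻¹ := by group
        _ = c * (y * ψ) * y⁻¹ * c⁻¹ := by rw [hFB ψ hψ y hy]
        _ = c * (y * x) * δ * x⁻¹ * δ⁻¹ * y⁻¹ * c⁻¹ := by rw [hψdef]; group
        _ = c * (x * y) * δ * x⁻¹ * δ⁻¹ * y⁻¹ * c⁻¹ := by rw [ex]
        _ = a * a' * (a⁻¹ * y) * a * a'⁻¹ * a⁻¹ * y⁻¹ := by rw [hxdef, hδdef]; group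
        _ = a * a' * (y * a⁻¹) * a * a'⁻¹ * a⁻¹ * y⁻¹ := by rw [ey']
        _ = a * (a' * y * a'⁻¹ * y⁻¹) * (y * a⁻¹) * y⁻¹ := by group
        _ = a * (a' * y * a'⁻¹ * y⁻¹) * (a⁻¹ * y) * y⁻¹ := by rw [ey']
        _ = φ * d := by rw [hyd, hφdef]; group
    have hdφ : d * φ = φ * d := (hFD φ hφ d hd).symm
    rcases hS.pair A' hA' F hFS with h | h | h
    · exfalso
      apply hφ1
      have e2 : ψ = φ * d := by
        rw [← e1, (commute_of_bracket h hc' hψ)]; group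
      have hdF : d ∈ F := by
        rw [show d = φ⁻¹ * ψ by rw [e2]; group]
        exact mul_mem (inv_mem hφ) hψ
      rw [hφdef, ← hFA d hdF a ha]; group
    · exfalso
      refine hd1 (eq_of_mul_mem hS hA' (hS.conj_mem F hFS c) (RankOnePair_symm h) (z := d)
        (fun f hf => (hFD f hf d hd).symm) (hDA' d hd) hφ hφ1 (F := conjBy F c) ?_).2
      rw [hdφ, ← e1]; exact ⟨ψ, hψ, rfl⟩
    · have hg : ∀ w ∈ A', (c * ψ * c⁻¹ * ψ⁻¹) * w = w * (c * ψ * c⁻¹ * ψ⁻¹) := fun w hw =>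
        h.2.1 _ (comm_mem hc' hψ) w (mem_sup_left hw)
      have heq : φ * ψ⁻¹ = 1 := by
        refine hom_inj hS hA' hA'i h hc' hc1 (mul_mem hφ (inv_mem hψ)) ?_
        have e3 : φ * ψ⁻¹ = d⁻¹ * (c * ψ * c⁻¹ * ψ⁻¹) := by rw [e1, ← hdφ]; group
        have c4 : Commute (φ * ψ⁻¹) c := by
          rw [e3]
          exact Commute.mul_left (hDA' _ (inv_mem hd) c hc' : Commute d⁻¹ c) (hg c hc')
        calc c⁻¹ * (φ * ψ⁻¹)⁻¹ * c * (φ * ψ⁻¹) = c⁻¹ * (φ * ψ⁻¹)⁻¹ * (c * (φ * ψ⁻¹)) := by group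
          _ = c⁻¹ * (φ * ψ⁻¹)⁻¹ * ((φ * ψ⁻¹) * c) := by rw [c4.eq]
          _ = 1 := by group
      refine ⟨ψ, hψ, ?_⟩
      rw [e1, ← hdφ, mul_assoc, heq, mul_one]
  obtain ⟨ψ, hψ, hψd⟩ := KEY (c * b * c⁻¹ * b⁻¹) (hDdef ▸ comm_mem hc' hb)
  set z := ψ⁻¹ * b with hzdef
  have hzc : z * c = c * z := by
    calc z * c = ψ⁻¹ * c * (c⁻¹ * b * c) := by rw [hzdef]; group
      _ = ψ⁻¹ * c * (c⁻¹ * b * c) := rfl
      _ = c * z := by
        have e4 : b * c⁻¹ * b⁻¹ = ψ * c⁻¹ * ψ⁻¹ := by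
          calc b * c⁻¹ * b⁻¹ = c⁻¹ * (c * b * c⁻¹ * b⁻¹) := by group
            _ = c⁻¹ * (c * ψ * c⁻¹ * ψ⁻¹) := by rw [hψd]
            _ = _ := by group
        calc ψ⁻¹ * c * (c⁻¹ * b * c) = ψ⁻¹ * (b * c⁻¹ * b⁻¹)⁻¹ * b := by group
          _ = ψ⁻¹ * (ψ * c⁻¹ * ψ⁻¹)⁻¹ * b := by rw [e4]
          _ = c * z := by rw [hzdef]; group
  have hzA : ∀ x ∈ A, z * x = x * z := fun x hx =>
    (Commute.mul_left (hFA _ (inv_mem hψ) x hx : Commute ψ⁻¹ x) ((hcA x hx b hb).symm : Commute b x)).eq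
  have hzA' : ∀ x ∈ A', z * x = x * z := by
    intro x hx
    obtain ⟨w, hw, hwe⟩ := (hcond ▸ ⟨x, hx, rfl⟩ : a * x * a⁻¹ ∈ conjBy A c)
    have hwe' : c * w * c⁻¹ = a * x * a⁻¹ := hwe
    have c5 : Commute z (a * x * a⁻¹) := by
      rw [← hwe']
      exact ((Commute.mul_right (hzc : Commute z c) (hzA w hw : Commute z w)).mul_right (Commute.inv_right hzc))
    have c6 : Commute z a := hzA a ha
    have c7 := (c6.inv_right.mul_right c5).mul_right c6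
    rwa [show a⁻¹ * (a * x * a⁻¹) * a = x by group] at c7
  obtain ⟨δ, hδ, hδe⟩ := surj hS hA hAi hAD (inv_mem ha) (inv_ne_one.mpr ha1) (hFdef ▸ hψ)
  rw [inv_inv] at hδe
  have hp' : IsRankOnePair (conjBy A δ) A' := by
    have h1 := conj_pair hp δ
    rwa [mem_normalizer_iff_conjBy.mp (mem_normalizer_of_commute fun x hx => hDA' δ hδ x hx)] at h1
  have hzδ : z * δ = δ * z :=
    (Commute.mul_left (hFD _ (inv_mem hψ) δ hδ : Commute ψ⁻¹ δ) ((hDB δ hδ b hb).symm : Commute b δ)).eq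
  have hzδ' : Commute z δ := hzδ
  have hδa : δ * a * δ⁻¹ = a * ψ := by rw [← hδe]; group
  obtain ⟨e, -⟩ := eq_of_mul_mem hS hA' hC hp' (z := z) (fun x hx => by
      obtain ⟨w, hw, rfl⟩ := hx
      exact ((hzδ'.mul_right (hzA w hw : Commute z w)).mul_right hzδ'.inv_right).eq)
    hzA' (a := δ * a * δ⁻¹) ⟨a, ha, rfl⟩ (fun e0 => ha1 (by
      calc a = δ⁻¹ * (δ * a * δ⁻¹) * δ := by group
        _ = 1 := by rw [e0]; group)) (by
      rw [hδa, hzdef]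
      have e5 : ψ⁻¹ * b * (a * ψ) = a * b := by
        calc ψ⁻¹ * b * (a * ψ) = ψ⁻¹ * (b * a) * ψ := by group
          _ = ψ⁻¹ * (a * b) * ψ := by rw [hcA a ha b hb]
          _ = (ψ⁻¹ * a) * (b * ψ) := by group
          _ = (a * ψ⁻¹) * (ψ * b) := by rw [hFA _ (inv_mem hψ) a ha, hFB ψ hψ b hb]
          _ = a * b := by group
      rwa [e5])
  exact e ▸ step.tail ⟨hA', hS.conj_mem A hA δ, RankOnePair_symm hp'⟩

end CfsgLib.RootSub.LineComponent
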