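import Cfsg.Agent.Lib.RootSub.LineComponent

/-! The line graph of a non-degenerate class of root subgroups. (helper6) -/

set_option autoImplicit false
set_option linter.unusedSectionVars false

namespace CfsgLib.RootSub.LineGraph

open Cfsg Subgroup CfsgLib.RootSub CfsgLib.RootSub.CommutatorLine CfsgLib.RootSub.LineComponent
open scoped commutatorElement

variable {G : Type*} [Group G] {S : Set (Subgroup G)}

theorem adj_symm {X Y : Subgroup G} (h : EAdj S S X Y) : EAdj S S Y X := by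
  obtain ⟨hX, hY, ⟨⟨-, hne, hc⟩, hp⟩⟩ := h
  exact ⟨hY, hX, ⟨hX, hne.symm, by rw [Subgroup.commutator_comm]; exact hc⟩, by rw [sup_comm]; exact hp⟩

theorem reach_symm {X Y : Subgroup G} (h : Relation.ReflTransGen (EAdj S S) X Y) :
    Relation.ReflTransGen (EAdj S S) Y X := by
  induction h with
  | refl => exact .refl
  | tail _ h ih => exact Relation.ReflTransGen.head (adj_symm h) ih

/-- A commutator pair gives a line. -/
theorem adj_comm (hS : IsRootSubgroupSet S) (hpart : ∀ A ∈ S, ∃ A' ∈ S, IsRankOnePair A A') {A B : Subgroup G}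
    (hA : A ∈ S) (hB : B ∈ S) (hc : RootCommutatorCase S A B) : EAdj S S A ⁅A, B⁆ := by
  obtain ⟨A', hA', hp⟩ := hpart A hA
  have hAi := not_isolated hA hA' hp
  refine ⟨hA, hc.1, ⟨hc.1, fun e => ?_, ?_⟩, fun C hC => hC.2, fun x hx hx1 => ?_, fun C hC D hD hne => ?_⟩
  · obtain ⟨a, ha, ha1⟩ := exists_ne_one (hS.ne_bot A hA)
    exact ha1 (ne_comm hS hA hAi hc a ha (e.symm ▸ ha))
  · exact commutator_eq_bot_iff_le_centralizer.mpr fun a ha => mem_centralizer_iff.mpr fun d hd =>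
      hc.2.1 d hd a (mem_sup_left ha)
  · rcases decompose hS hA hAi hc hx with h | ⟨b, hb, h⟩
    · exact ⟨_, ⟨hc.1, le_sup_right⟩, h⟩
    · exact ⟨_, ⟨hS.conj_mem A hA b, conj_le hS hA hAi hc hb⟩, h⟩
  · obtain ⟨C', hC', hpC⟩ := hpart C hC.1
    rcases inf_eq_bot_or_eq hS hC' hD.1 hpC with h | h
    · exact h
    · exact absurd h hne

/-- Some member of a line has no rank one pair with a given partner. -/
theorem exists_not_pair (hS : IsRootSubgroupSet S) (hpart : ∀ A ∈ S, ∃ A' ∈ S, IsRankOnePair A A') {A B C : Subgroup G}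
    (hA : A ∈ S) (hB : B ∈ S) (hc : RootCommutatorCase S A B) (hC : C ∈ S) (hAC : IsRankOnePair A C) :
    ∃ Q ∈ S, ¬ IsRankOnePair Q C ∧ Q ≤ A ⊔ ⁅A, B⁆ ∧ Relation.ReflTransGen (EAdj S S) A Q := by
  have hAi := not_isolated hA hC hAC
  have e0 := adj_comm hS hpart hA hB hc
  by_cases hD : IsRankOnePair ⁅A, B⁆ C
  swap
  · exact ⟨_, hc.1, hD, le_sup_right, .single e0⟩
  obtain ⟨z, hz, hz1⟩ := exists_ne_one (hS.ne_bot C hC)
  obtain ⟨a, ha, ha1, ea⟩ := hAC.cond_right z hz hz1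
  obtain ⟨d, hd, hd1, ed⟩ := hD.cond_right z hz hz1
  set u := a * d⁻¹
  have hcomm : ∀ x ∈ C, ∀ y ∈ C, (u * x * u⁻¹) * y = y * (u * x * u⁻¹) := by
    intro x hx y hy
    have h1 : d⁻¹ * x * d ∈ conjBy ⁅A, B⁆ z⁻¹ := ed ▸ ⟨x, hx, by simp⟩
    have h2 : a⁻¹ * y * a ∈ conjBy A z⁻¹ := ea ▸ ⟨y, hy, by simp⟩
    obtain ⟨d', hd', e1⟩ := h1
    obtain ⟨a', ha', e2⟩ := h2
    have hc' : Commute a' d' := (hc.2.1 d' hd' a' (mem_sup_left ha')).symm
    have h3 : Commute (d⁻¹ * x * d) (a⁻¹ * y * a) := by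
      rw [← e1, ← e2]
      exact hc'.symm.map (MulAut.conj z⁻¹).toMonoidHom
    have h4 := h3.map (MulAut.conj a).toMonoidHom
    simpa [u, mul_assoc] using h4.eq
  have hu : u ∈ A ⊔ ⁅A, B⁆ := mul_mem (mem_sup_left ha) (inv_mem (mem_sup_right hd))
  have hu1 : u ≠ 1 := fun e => ha1 (ne_comm hS hA hAi hc a ha (by
    rw [show a = d from by rw [← mul_inv_eq_one]; exact e]; exact hd))
  rcases decompose hS hA hAi hc hu with h | ⟨b, hb, h⟩
  · exact absurd hcomm (not_centralizes hD h hu1)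
  · refine ⟨_, hS.conj_mem A hA b, fun hp => not_centralizes hp h hu1 hcomm, conj_le hS hA hAi hc hb, ?_⟩
    refine (Relation.ReflTransGen.single e0).tail ?_
    obtain ⟨-, -, ⟨⟨-, hne, hcb⟩, hp⟩⟩ := e0
    have hfix : conjBy ⁅A, B⁆ b = ⁅A, B⁆ := mem_normalizer_iff_conjBy.mp (mem_normalizer_of_commute fun x hx =>
      (hc.2.1 x hx b (mem_sup_right hb)).symm)
    have hsup : conjBy A b ⊔ ⁅A, B⁆ = A ⊔ ⁅A, B⁆ := by
      refine le_antisymm (sup_le (conj_le hS hA hAi hc hb) le_sup_right) (sup_le ?_ le_sup_right)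
      intro x hx
      have h5 : x⁻¹ * (b * x * b⁻¹) ∈ ⁅A, B⁆ := by
        have := comm_mem (inv_mem hx) hb
        simpa [mul_assoc] using this
      have h6 := mul_mem (mem_sup_left (show b * x * b⁻¹ ∈ conjBy A b from ⟨x, hx, rfl⟩))
        (inv_mem (mem_sup_right h5) : (x⁻¹ * (b * x * b⁻¹))⁻¹ ∈ conjBy A b ⊔ ⁅A, B⁆)
      simpa [mul_assoc] using h6
    refine ⟨hc.1, hS.conj_mem A hA b, ⟨hS.conj_mem A hA b, fun e => hne ?_, ?_⟩, ?_⟩
    · exact (conjBy_inj (e.trans hfix.symm)).symm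
    · rw [← hfix]
      exact commutator_eq_bot_iff_le_centralizer.mpr fun x hx => mem_centralizer_iff.mpr fun y hy => by
        obtain ⟨x, hx, rfl⟩ := hx
        obtain ⟨y, hy, rfl⟩ := hy
        have h7 : Commute y x := (hc.2.1 x hx y (mem_sup_left hy)).symm
        exact (h7.map (MulAut.conj b).toMonoidHom).eq
    · rw [sup_comm, hsup]; exact hp

theorem adj_conj (hS : IsRootSubgroupSet S) {X Y : Subgroup G} (h : EAdj S S X Y) (g : G) :
    EAdj S S (conjBy X g) (conjBy Y g) := by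
  obtain ⟨hX, hY, ⟨⟨-, hne, hc⟩, hp⟩⟩ := h
  refine ⟨hS.conj_mem X hX g, hS.conj_mem Y hY g, ⟨hS.conj_mem Y hY g, fun e => hne (conjBy_inj e), ?_⟩, ?_⟩
  · rw [← Subgroup.map_commutator, hc, Subgroup.map_bot]
  · have hsup : conjBy X g ⊔ conjBy Y g = conjBy (X ⊔ Y) g := (Subgroup.map_sup X Y _).symm
    rw [hsup]
    refine ⟨fun C hC => hC.2, fun x hx hx1 => ?_, fun C hC D hD hne' => ?_⟩
    · obtain ⟨w, hw, rfl⟩ := hx
      obtain ⟨C, hC, hwC⟩ := hp.2.1 w hw fun e => hx1 (by rw [e]; exact map_one _)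
      exact ⟨conjBy C g, ⟨hS.conj_mem C hC.1 g, Subgroup.map_mono hC.2⟩, ⟨w, hwC, rfl⟩⟩
    · have back : ∀ C ∈ membersIn S (conjBy (X ⊔ Y) g), conjBy C g⁻¹ ∈ membersIn S (X ⊔ Y) := fun C hC =>
        ⟨hS.conj_mem C hC.1 _, (Subgroup.map_mono hC.2).trans_eq (conjBy_inv_self _ _)⟩
      have h1 := hp.2.2 _ (back C hC) _ (back D hD) fun e => hne' (conjBy_inj e)
      rw [← Subgroup.map_inf _ _ _ (MulAut.conj g⁻¹).injective, Subgroup.map_eq_bot_iff_of_injective _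
        (MulAut.conj g⁻¹).injective] at h1
      exact h1

theorem reach_conj (hS : IsRootSubgroupSet S) {X Y : Subgroup G} (h : Relation.ReflTransGen (EAdj S S) X Y) (g : G) :
    Relation.ReflTransGen (EAdj S S) (conjBy X g) (conjBy Y g) := by
  induction h with
  | refl => exact .refl
  | tail _ h ih => exact ih.tail (adj_conj hS h g)

end CfsgLib.RootSub.LineGraph
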