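import Cfsg.Agent.Lib.RootSub.RankOneNormal
import Cfsg.Prelude.Def_Transfer

/-! Quadratic action of a rank one group forces prime exponent. (helper6) -/

set_option autoImplicit false
set_option linter.unusedSectionVars false
set_option linter.style.haveILetI false

namespace CfsgLib.RootSub.QuadraticExponent

open Cfsg Subgroup
open scoped commutatorElement

variable {X : Type*} [Group X] {V : Type*} [AddCommGroup V] [DistribMulAction X V]

/-- The displacement of an element, as an endomorphism. -/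
def δ (x : X) : AddMonoid.End V := DistribSMul.toAddMonoidHom V x - AddMonoidHom.id V

theorem δ_apply (x : X) (v : V) : δ x v = x • v - v := rfl

theorem sn (g : X) (n : ℕ) (v : V) : g • (n • v) = n • (g • v) := (smul_comm n g v).symm

theorem δ_mul (x y : X) (v : V) : δ (x * y) v = δ y v + δ x v + δ x (δ y v) := by
  simp only [δ_apply, mul_smul, smul_sub]; abel

/-- The effect of a commutator with `a` on displacements. -/
def T (α f : AddMonoid.End V) : AddMonoid.End V := α * f - f * α - α * f * α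

theorem triple {α β γ f : AddMonoid.End V} (h : ∀ x ∈ [α, β, γ], ∀ y ∈ [α, β, γ], x * y = 0) :
    T α (T β (T γ f)) = 0 := by
  have e1 : α * β = 0 := h α (by simp) β (by simp)
  have e2 : α * γ = 0 := h α (by simp) γ (by simp)
  have e3 : β * γ = 0 := h β (by simp) γ (by simp)
  have e4 : γ * α = 0 := h γ (by simp) α (by simp)
  have e5 : γ * β = 0 := h γ (by simp) β (by simp)
  have e6 : β * α = 0 := h β (by simp) α (by simp)
  simp only [T, mul_sub, sub_mul, ← mul_assoc, e1, e2, e3, e4, e5, e6, zero_mul]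
  simp only [mul_assoc, e1, e2, e3, e4, e5, e6, mul_zero]
  simp

theorem main {A B : Subgroup X} (h : Cfsg.IsRankOneGroup X A B) (hf : ∀ x : X, (∀ v : V, x • v = v) → x = 1)
    (hq : ∀ a ∈ A, ∀ a' ∈ A, ∀ v : V, a' • (a • v - v) = a • v - v) :
    (∀ a ∈ A, a ≠ 1 → ¬ IsOfFinOrder a) ∨ ∃ p : ℕ, p.Prime ∧ Cfsg.IsElementaryAbelian p A := by
  by_cases htf : ∀ a ∈ A, a ≠ 1 → ¬ IsOfFinOrder a
  · exact Or.inl htf
  push Not at htf
  obtain ⟨a₀, ha₀, ha₀1, hfin⟩ := htf
  have hδA : ∀ a ∈ A, ∀ a' ∈ A, ∀ v : V, δ a' (δ a v) = 0 := fun a ha a' ha' v => by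
    show a' • (a • v - v) - (a • v - v) = 0
    rw [hq a ha a' ha', sub_self]
  have hadd : ∀ a ∈ A, ∀ a' ∈ A, ∀ v : V, δ (a * a') v = δ a v + δ a' v := fun a ha a' ha' v => by
    rw [δ_mul, hδA a' ha' a ha, add_zero, add_comm]
  have hinj : ∀ x y : X, (∀ v : V, δ x v = δ y v) → x = y := fun x y he => by
    refine mul_inv_eq_one.mp (hf _ fun v => ?_)
    have h1 := he (y⁻¹ • v)
    simp only [δ_apply, smul_inv_smul, sub_left_inj] at h1
    rw [mul_smul]; exact h1
  have hAc : ∀ a ∈ A, ∀ a' ∈ A, a * a' = a' * a := fun a ha a' ha' =>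
    hinj _ _ fun v => by rw [hadd a ha a' ha', hadd a' ha' a ha, add_comm]
  have hpow : ∀ a ∈ A, ∀ (k : ℕ) (v : V), δ (a ^ k) v = k • δ a v := by
    intro a ha k v
    induction k with
    | zero => simp [δ_apply]
    | succ k ih => rw [pow_succ, hadd _ (A.pow_mem ha k) a ha, ih, succ_nsmul]
  have hord : orderOf a₀ ≠ 1 := fun e => ha₀1 (orderOf_eq_one_iff.mp e)
  obtain ⟨p, hp, hpd⟩ := Nat.exists_prime_and_dvd hord
  obtain ⟨a, ha, hao⟩ : ∃ a ∈ A, orderOf a = p := by
    obtain ⟨k, hk⟩ := hpd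
    refine ⟨a₀ ^ k, A.pow_mem ha₀ k, ?_⟩
    have hpos := hfin.orderOf_pos
    have hk0 : k ≠ 0 := by rintro rfl; omega
    rw [orderOf_pow' _ hk0, hk, Nat.gcd_mul_left_left, Nat.mul_div_cancel _ (Nat.pos_of_ne_zero hk0)]
  refine Or.inr ⟨p, hp, ⟨⟨fun x y => Subtype.ext (hAc x x.2 y y.2)⟩⟩, fun c hc => ?_⟩
  by_contra hcp
  let N₁ : Subgroup X :=
    { carrier := {x | ∀ v : V, p • v = 0 → x • v = v}
      one_mem' := fun v _ => one_smul X v
      mul_mem' := fun {x y} hx hy v hv => by rw [mul_smul, hy v hv, hx v hv]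
      inv_mem' := fun {x} hx v hv => by rw [inv_smul_eq_iff, hx v hv] }
  let N₂ : Subgroup X :=
    { carrier := {x | ∀ v : V, x • (p • v) = p • v}
      one_mem' := fun v => one_smul X _
      mul_mem' := fun {x y} hx hy v => by rw [mul_smul, hy v, hx v]
      inv_mem' := fun {x} hx v => by rw [inv_smul_eq_iff, hx v] }
  have hn1 : N₁.Normal := ⟨fun x hx g v hv => by
    rw [mul_smul, mul_smul, hx (g⁻¹ • v) (by rw [← sn, hv, smul_zero]), smul_inv_smul]⟩
  have hn2 : N₂.Normal := ⟨fun x hx g v => by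
    rw [mul_smul, mul_smul, sn g⁻¹ p v, hx (g⁻¹ • v), sn g p, smul_inv_smul]⟩
  have hcN : c ^ p ∈ N₁ := fun v hv => by
    have h1 : δ (c ^ p) v = 0 := by rw [hpow c hc, ← map_nsmul, hv, map_zero]
    exact sub_eq_zero.mp h1
  have haN : a ∈ N₂ := fun v => by
    have h1 : δ a (p • v) = 0 := by
      rw [map_nsmul, ← hpow a ha, ← hao, pow_orderOf_eq_one]; simp [δ_apply]
    exact sub_eq_zero.mp h1
  have cover : ∀ N : Subgroup X, N.Normal → ∀ x ∈ A, x ≠ 1 → x ∈ N → N ⊔ A = ⊤ := fun N hN x hx hx1 hxN =>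
    (normal_cases h N hN).resolve_right fun hle =>
      not_commute_of_pair h.2 hx hx1 fun b _ => (mem_center_iff.mp (hle hxN) b).symm
  have h1top := cover N₁ hn1 (c ^ p) (A.pow_mem hc p) hcp hcN
  have h2top := cover N₂ hn2 a ha (fun e => by rw [e, orderOf_one] at hao; exact hp.ne_one hao.symm) haN
  have hcom : ∀ N : Subgroup X, N.Normal → N ⊔ A = ⊤ → ∀ x y : X, ⁅x, y⁆ ∈ N := by
    intro N hN htop x y
    obtain ⟨n, hn, u, hu, rfl⟩ := mem_sup_of_normal_left.mp (htop ▸ mem_top x)
    obtain ⟨m, hm, w, hw, rfl⟩ := mem_sup_of_normal_left.mp (htop ▸ mem_top y)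
    rw [← QuotientGroup.eq_one_iff, ← QuotientGroup.mk'_apply, map_commutatorElement,
      commutatorElement_eq_one_iff_mul_comm]
    simp only [map_mul]
    rw [show QuotientGroup.mk' N n = 1 from (QuotientGroup.eq_one_iff n).mpr hn,
      show QuotientGroup.mk' N m = 1 from (QuotientGroup.eq_one_iff m).mpr hm, one_mul, one_mul, ← map_mul, ← map_mul,
      hAc u hu w hw]
  set M := N₁ ⊓ N₂ with hM
  have hMn : M.Normal := by rw [hM]; exact Subgroup.normal_inf_normal _ _
  have hXM : ∀ x y : X, ⁅x, y⁆ ∈ M := fun x y => ⟨hcom N₁ hn1 h1top x y, hcom N₂ hn2 h2top x y⟩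
  have hδM : ∀ x ∈ M, ∀ y ∈ M, ∀ v : V, δ y (δ x v) = 0 := fun x hx y hy v => by
    refine sub_eq_zero.mpr (hy.1 _ ?_)
    rw [δ_apply, smul_sub, ← sn, hx.2 v, sub_self]
  have hMc : ∀ x ∈ M, ∀ y ∈ M, x * y = y * x := fun x hx y hy =>
    hinj _ _ fun v => by rw [δ_mul, δ_mul, hδM x hx y hy, hδM y hy x hx, add_zero, add_zero, add_comm]
  apply not_nilpotent h
  rcases normal_cases h M hMn with hMA | hMZ
  · have hT : ∀ u ∈ A, ∀ x ∈ M, δ ⁅u, x⁆ = T (δ u) (δ x : AddMonoid.End V) := by
      intro u hu x hx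
      refine DFunLike.ext _ _ fun v => ?_
      have h1 : δ ⁅u, x⁆ v = δ (u * x * u⁻¹) v - δ x v := by
        have h2 := δ_mul ⁅u, x⁆ x v
        rw [hδM x hx _ (hXM u x), add_zero, commutatorElement_def, inv_mul_cancel_right] at h2
        rw [eq_sub_iff_add_eq, add_comm]; exact h2.symm
      rw [h1]
      have hinv : ∀ w : V, u⁻¹ • w = w - δ u w := fun w => by
        have h2 := hadd u⁻¹ (A.inv_mem hu) u hu w
        rw [inv_mul_cancel, show δ (1 : X) w = 0 by simp [δ_apply]] at h2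
        have h3 : δ u⁻¹ w = -δ u w := eq_neg_of_add_eq_zero_left h2.symm
        rw [sub_eq_add_neg, ← h3, δ_apply, add_sub_cancel]
      show (u * x * u⁻¹) • v - v - δ x v = δ u (δ x v) - δ x (δ u v) - δ u (δ x (δ u v))
      have e1 : (u * x * u⁻¹) • v - v = u • δ x (u⁻¹ • v) := by
        rw [δ_apply, smul_sub, smul_inv_smul, mul_smul, mul_smul]
      rw [e1, hinv, map_sub, smul_sub]
      simp only [δ_apply, smul_sub]
      abel
    have up : ∀ (k : ℕ) (x : X), x ∈ M →
        (∀ l : List X, l.length = k → (∀ u ∈ l, u ∈ A) → l.foldr (fun u f => T (δ u) f) (δ x : AddMonoid.End V) = 0) →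
        x ∈ Subgroup.upperCentralSeries X k := by
      intro k
      induction k with
      | zero =>
        intro x _ hx
        rw [Subgroup.upperCentralSeries_zero, Subgroup.mem_bot]
        exact hf x fun v => sub_eq_zero.mp (DFunLike.congr_fun (hx [] rfl (by simp)) v)
      | succ k ih =>
        intro x hxM hx
        rw [Subgroup.mem_upperCentralSeries_succ_iff]
        intro y
        obtain ⟨m, hm, u, hu, rfl⟩ := mem_sup_of_normal_left.mp (hMA ▸ mem_top y)
        have h1 : ⁅u, x⁆ ∈ Subgroup.upperCentralSeries X k := ih _ (hXM u x) fun l hl hlA => by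
          have h2 := hx (l ++ [u]) (by simp [hl]) (by
            intro w hw
            rcases List.mem_append.mp hw with hw | hw
            · exact hlA w hw
            · exact (List.mem_singleton.mp hw) ▸ hu)
          rw [List.foldr_append] at h2
          simpa [hT u hu x hxM] using h2
        have h3 : ⁅x, m * u⁆ = ⁅u, x⁆⁻¹ := by
          rw [commutatorElement_inv]
          have e : ⁅x, m * u⁆ = ⁅x, m⁆ * (m * ⁅x, u⁆ * m⁻¹) := by simp only [commutatorElement_def]; group
          rw [e, commutatorElement_eq_one_iff_mul_comm.mpr (hMc x hxM m hm), one_mul, hMc m hm _ (hXM x u),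
            mul_inv_cancel_right]
        show ⁅x, m * u⁆ ∈ _
        rw [h3]
        exact inv_mem h1
    have hM3 : ∀ x ∈ M, x ∈ Subgroup.upperCentralSeries X 3 := fun x hx => up 3 x hx fun l hl hlA => by
      obtain ⟨α, β, γ, rfl⟩ : ∃ α β γ, l = [α, β, γ] := by
        match l, hl with
        | [α, β, γ], _ => exact ⟨α, β, γ, rfl⟩
      refine triple fun s hs t ht => ?_
      have mem : ∀ s ∈ [δ (V := V) α, δ β, δ γ], ∃ u ∈ A, s = δ u := fun s hs => by
        simp only [List.mem_cons, List.not_mem_nil, or_false] at hs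
        rcases hs with rfl | rfl | rfl <;> exact ⟨_, hlA _ (by simp), rfl⟩
      obtain ⟨u, hu, rfl⟩ := mem s hs
      obtain ⟨w, hw, rfl⟩ := mem t ht
      exact DFunLike.ext _ _ fun v => hδA w hw u hu v
    refine ⟨4, eq_top_iff.mpr fun x _ => ?_⟩
    rw [Subgroup.mem_upperCentralSeries_succ_iff]
    exact fun y => hM3 _ (hXM x y)
  · refine ⟨2, eq_top_iff.mpr fun x _ => ?_⟩
    rw [Subgroup.mem_upperCentralSeries_succ_iff]
    intro y
    rw [Subgroup.upperCentralSeries_one]
    exact hMZ (hXM x y)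

end CfsgLib.RootSub.QuadraticExponent
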