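import Cfsg.Agent.Lib.RootSub.RootSet

/-! Normal subgroups of a rank one group. -/

set_option autoImplicit false

namespace CfsgLib.RootSub

open Cfsg Subgroup
open scoped commutatorElement

variable {X : Type*} [Group X] {A B : Subgroup X}

theorem normal_cases (h : IsRankOneGroup X A B) (N : Subgroup X) (hN : N.Normal) :
    N ⊔ A = ⊤ ∨ N ≤ center X := by
  obtain ⟨htop, hp⟩ := h
  by_cases hfix : ∀ n ∈ N, conjBy A n = A
  · right
    have hB : ∀ n ∈ N, conjBy B n = B := by
      intro n hn
      obtain ⟨x, -, e⟩ := B_mem_unipotent hp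
      have h1 := hfix (x⁻¹ * n * x) (by simpa using hN.conj_mem n hn x⁻¹)
      rw [e, conjBy_conjBy]
      rw [show n * x = x * (x⁻¹ * n * x) by group, ← conjBy_conjBy, h1]
    intro n hn
    rw [mem_center_iff]
    have key : ∀ {A B : Subgroup X}, IsRankOnePair A B → (∀ m ∈ N, conjBy A m = A) →
        (∀ m ∈ N, conjBy B m = B) → ∀ a ∈ A, n * a = a * n := by
      intro A B hp hfA hfB a ha
      have h1 : n * a * n⁻¹ * a⁻¹ ∈ A ⊓ normalizer (B : Set X) := by
        refine mem_inf.mpr ⟨mul_mem ((mem_normalizer_iff.mp (mem_normalizer_iff_conjBy.mpr (hfA n hn)) a).mp ha)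
          (inv_mem ha), ?_⟩
        rw [show n * a * n⁻¹ * a⁻¹ = n * (a * n⁻¹ * a⁻¹) by group]
        exact mem_normalizer_iff_conjBy.mpr (hfB _ (mul_mem hn (hN.conj_mem _ (inv_mem hn) a)))
      rw [A_inf_normalizer hp, mem_bot] at h1
      calc n * a = (n * a * n⁻¹ * a⁻¹) * (a * n) := by group
        _ = a * n := by rw [h1, one_mul]
    intro x
    have hle : A ⊔ B ≤ centralizer ({n} : Set X) :=
      sup_le (fun a ha => mem_centralizer_singleton_iff.mpr (key hp hfix hB a ha).symm)
        fun b hb => mem_centralizer_singleton_iff.mpr (key (RankOnePair_symm hp) hB hfix b hb).symm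
    exact mem_centralizer_singleton_iff.mp (hle (htop ▸ mem_top x))
  · left
    push Not at hfix
    obtain ⟨n, hn, hne⟩ := hfix
    obtain ⟨a, ha, e⟩ := ((unipotent_eq hp).mp (conj_mem_unipotent hp (A_mem_unipotent hp)
      (htop ▸ mem_top n))).resolve_left hne
    rw [eq_top_iff, ← htop]
    refine sup_le le_sup_right fun b hb => ?_
    have hB : B = conjBy A (a⁻¹ * n * a) := by
      rw [← conjBy_conjBy A a, conjBy_of_mem ha, ← conjBy_conjBy A n, e, conjBy_inv_self]
    have hn' : a⁻¹ * n * a ∈ N := by simpa using hN.conj_mem n hn a⁻¹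
    rw [hB, mem_conjBy] at hb
    have h2 := mul_mem (mul_mem (mem_sup_left (T := A) hn') (mem_sup_right (S := N) hb))
      (inv_mem (mem_sup_left (T := A) hn'))
    convert h2 using 1
    group

theorem not_mem_center (h : IsRankOneGroup X A B) : ¬ A ≤ center X := fun hle => by
  obtain ⟨a, ha, ha1⟩ := exists_ne_one (A_ne_bot h.2)
  exact not_commute_of_pair h.2 ha ha1 fun b _ => (mem_center_iff.mp (hle ha) b).symm

theorem quotient_nilpotent (h : IsRankOneGroup X A B) (N : Subgroup X) [hN : N.Normal] (hA : N ⊔ A = ⊤) :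
    Group.IsNilpotent (X ⧸ N) := by
  haveI := h.2.nilpotent_left
  refine Group.nilpotent_of_surjective ((QuotientGroup.mk' N).comp A.subtype) fun q => ?_
  obtain ⟨x, rfl⟩ := QuotientGroup.mk'_surjective N q
  obtain ⟨n, hn, a, ha, rfl⟩ := mem_sup_of_normal_left.mp (hA ▸ mem_top x)
  refine ⟨⟨a, ha⟩, ?_⟩
  show QuotientGroup.mk' N a = QuotientGroup.mk' N (n * a)
  rw [map_mul, show QuotientGroup.mk' N n = 1 from (QuotientGroup.eq_one_iff n).mpr hn, one_mul]

theorem quasisimple (h : IsRankOneGroup X A B) (hX : Group.IsPerfect X) : IsQuasisimple X := by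
  refine ⟨hX, ?_⟩
  haveI : Nontrivial (X ⧸ center X) := by
    obtain ⟨a, ha, hac⟩ := SetLike.not_le_iff_exists.mp (not_mem_center h)
    exact ⟨⟨QuotientGroup.mk a, 1, fun e => hac ((QuotientGroup.eq_one_iff a).mp e)⟩⟩
  refine ⟨fun M hM => ?_⟩
  haveI : (M.comap (QuotientGroup.mk' (center X))).Normal := hM.comap _
  rcases normal_cases h (M.comap (QuotientGroup.mk' (center X))) inferInstance with h1 | h1
  · right
    haveI := quotient_nilpotent h _ h1
    haveI : Group.IsSolvable (X ⧸ M.comap (QuotientGroup.mk' (center X))) := inferInstance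
    have hsub : Subsingleton (X ⧸ M.comap (QuotientGroup.mk' (center X))) := by
      by_contra hns
      rw [not_subsingleton_iff_nontrivial] at hns
      haveI : Group.IsPerfect (X ⧸ M.comap (QuotientGroup.mk' (center X))) :=
        Group.IsPerfect.ofSurjective (f := QuotientGroup.mk' (M.comap (QuotientGroup.mk' (center X))))
          (QuotientGroup.mk'_surjective _)
      exact Group.IsPerfect.not_isSolvable (X ⧸ M.comap (QuotientGroup.mk' (center X))) inferInstance
    rw [eq_top_iff]
    intro q _
    obtain ⟨x, rfl⟩ := QuotientGroup.mk'_surjective _ q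
    exact (QuotientGroup.eq_one_iff x).mp (@Subsingleton.elim _ hsub _ _)
  · left
    rw [eq_bot_iff]
    intro q hq
    obtain ⟨x, rfl⟩ := QuotientGroup.mk'_surjective _ q
    exact (QuotientGroup.eq_one_iff x).mpr (h1 hq)

theorem not_nilpotent (h : IsRankOneGroup X A B) : ¬ Group.IsNilpotent X := by
  intro hnil
  have hlt : normalizer (A : Set X) < ⊤ := by
    refine lt_top_iff_ne_top.mpr fun htop => ?_
    obtain ⟨x, -, e⟩ := B_mem_unipotent h.2
    exact h.2.ne (by rw [e, mem_normalizer_iff_conjBy.mp (htop ▸ mem_top x)])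
  obtain ⟨g, hg, hgn⟩ := SetLike.exists_of_lt (Group.normalizerCondition_of_isNilpotent _ hlt)
  have hne : conjBy A g ≠ A := fun e => hgn (mem_normalizer_iff_conjBy.mpr e)
  obtain ⟨c, hc, e⟩ := ((unipotent_eq h.2).mp (conj_mem_unipotent h.2 (A_mem_unipotent h.2)
    (h.1 ▸ mem_top g))).resolve_left hne
  obtain ⟨a, ha, ha1⟩ := exists_ne_one (A_ne_bot h.2)
  have h1 : g⁻¹ * a * g ∈ normalizer (A : Set X) := by
    have h3 := (mem_normalizer_iff.mp (inv_mem hg) a).mp (le_normalizer ha)
    simpa using h3
  have h2 : conjBy (conjBy A g) a = conjBy A g := by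
    rw [conjBy_conjBy, show a * g = g * (g⁻¹ * a * g) by group, ← conjBy_conjBy,
      mem_normalizer_iff_conjBy.mp h1]
  rw [e, conjBy_conjBy] at h2
  exact ha1 (by simpa using eq_of_conjBy_B h.2 (mul_mem ha hc) hc h2)

theorem upper_two_eq (h : IsRankOneGroup X A B) : Subgroup.upperCentralSeries X 2 = center X := by
  refine le_antisymm ?_ (center_le_two X)
  rcases normal_cases h (Subgroup.upperCentralSeries X 2) inferInstance with h1 | h1
  · exfalso
    haveI := quotient_nilpotent h _ h1
    apply not_nilpotent h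
    obtain ⟨n, hn⟩ := Subgroup.nilpotent_iff_lowerCentralSeries.mp
      (inferInstance : Group.IsNilpotent (X ⧸ Subgroup.upperCentralSeries X 2))
    have hle : (⊤ : Subgroup X).lowerCentralSeries n ≤ Subgroup.upperCentralSeries X 2 := by
      intro x hx
      have := Subgroup.map_lowerCentralSeries (⊤ : Subgroup X) (QuotientGroup.mk' (Subgroup.upperCentralSeries X 2)) n
      have h3 : QuotientGroup.mk' (Subgroup.upperCentralSeries X 2) x ∈ (⊥ : Subgroup _) := by
        rw [← hn, ← Subgroup.map_top_of_surjective _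
          (QuotientGroup.mk'_surjective (Subgroup.upperCentralSeries X 2)), ← this]
        exact ⟨x, hx, rfl⟩
      exact (QuotientGroup.eq_one_iff x).mp (mem_bot.mp h3)
    refine Subgroup.nilpotent_iff_lowerCentralSeries.mpr ⟨n + 2, ?_⟩
    have h2 : (⊤ : Subgroup X).lowerCentralSeries (n + 1) ≤ center X := by
      rw [Subgroup.lowerCentralSeries_succ, commutator_le]
      intro p hp q _
      rw [commutatorElement_def]
      exact commutator_mem_center_of_two (hle hp) q
    rw [Subgroup.lowerCentralSeries_succ, eq_bot_iff, commutator_le]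
    intro p hp q _
    rw [mem_bot, commutatorElement_eq_one_iff_commute]
    exact (mem_center_iff.mp (h2 hp) q).symm
  · exact h1

end CfsgLib.RootSub
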