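import Cfsg.Prelude.Def_RootSubgroups
import Mathlib.GroupTheory.Nilpotent
import Mathlib.Tactic.Group

/-! Rank one pairs of subgroups. -/

set_option autoImplicit false

namespace CfsgLib.RootSub

open Cfsg Subgroup

variable {G : Type*} [Group G] {A B : Subgroup G}

theorem mem_conjBy {x g : G} : x ∈ conjBy A g ↔ g⁻¹ * x * g ∈ A := by
  constructor
  · rintro ⟨y, hy, rfl⟩
    simpa [mul_assoc] using hy
  · intro h
    exact ⟨_, h, by simp [mul_assoc]⟩

theorem conjBy_conjBy (A : Subgroup G) (g h : G) : conjBy (conjBy A g) h = conjBy A (h * g) := by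
  ext x
  simp only [mem_conjBy, mul_inv_rev, mul_assoc]

theorem conjBy_one (A : Subgroup G) : conjBy A 1 = A := by
  ext x; simp [mem_conjBy]

theorem conjBy_inv_self (A : Subgroup G) (g : G) : conjBy (conjBy A g) g⁻¹ = A := by
  rw [conjBy_conjBy, inv_mul_cancel, conjBy_one]

theorem conjBy_self_inv (A : Subgroup G) (g : G) : conjBy (conjBy A g⁻¹) g = A := by
  rw [conjBy_conjBy, mul_inv_cancel, conjBy_one]

theorem conjBy_inj {C D : Subgroup G} {g : G} (h : conjBy C g = conjBy D g) : C = D := by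
  rw [← conjBy_inv_self C g, h, conjBy_inv_self]

theorem mem_normalizer_iff_conjBy {g : G} : g ∈ normalizer (A : Set G) ↔ conjBy A g = A := by
  rw [mem_normalizer_iff]
  constructor
  · intro h
    ext x
    rw [mem_conjBy, h]
    simp [mul_assoc]
  · intro h x
    conv_rhs => rw [← h, mem_conjBy]
    simp [mul_assoc]

theorem conjBy_of_mem {a : G} (ha : a ∈ A) : conjBy A a = A :=
  mem_normalizer_iff_conjBy.mp (le_normalizer ha)

theorem exists_ne_one {H : Subgroup G} (hH : H ≠ ⊥) : ∃ x ∈ H, x ≠ 1 := by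
  by_contra hcon
  push Not at hcon
  exact hH ((eq_bot_iff_forall H).mpr hcon)

variable (h : IsRankOnePair A B)
include h

theorem B_inf_normalizer : B ⊓ normalizer (A : Set G) = ⊥ := by
  rw [eq_bot_iff]
  rintro b ⟨hb, hn⟩
  rw [mem_bot]
  by_contra hb1
  obtain ⟨a, ha, -, e⟩ := h.cond_right b hb hb1
  rw [mem_normalizer_iff_conjBy.mp (inv_mem hn)] at e
  apply h.ne
  rw [← conjBy_self_inv B a, e, conjBy_of_mem ha]

theorem A_inf_normalizer : A ⊓ normalizer (B : Set G) = ⊥ := B_inf_normalizer (RankOnePair_symm h)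

theorem A_ne_bot : A ≠ ⊥ := by
  intro hA
  refine h.ne (hA.trans ((eq_bot_iff.mpr fun b hb => mem_bot.mpr (by_contra fun hb1 => ?_)) : B = ⊥).symm)
  obtain ⟨a, ha, ha1, -⟩ := h.cond_right b hb hb1
  exact ha1 (by rwa [hA, mem_bot] at ha)

/-- `A` acts freely on the conjugates of `B`. -/
theorem eq_of_conjBy_B {a a' : G} (ha : a ∈ A) (ha' : a' ∈ A) (e : conjBy B a = conjBy B a') : a = a' := by
  have h1 : a'⁻¹ * a ∈ A ⊓ normalizer (B : Set G) :=
    Subgroup.mem_inf.mpr ⟨mul_mem (inv_mem ha') ha, mem_normalizer_iff_conjBy.mpr (by rw [← conjBy_conjBy, e, conjBy_inv_self])⟩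
  rw [A_inf_normalizer h, mem_bot] at h1
  exact (inv_mul_eq_one.mp h1).symm

theorem conjBy_B_ne {a : G} (ha : a ∈ A) : conjBy B a ≠ A := fun e =>
  h.ne (by rw [← conjBy_inv_self B a, e, conjBy_of_mem (inv_mem ha)])

/-- The conjugates of `A` under `A ⊔ B`. -/
theorem unipotent_eq {C : Subgroup G} :
    C ∈ unipotentSubgroups A B ↔ C = A ∨ ∃ a ∈ A, C = conjBy B a := by
  let T : Set (Subgroup G) := {C | C = A ∨ ∃ a ∈ A, C = conjBy B a}
  have hBA : ∀ b ∈ B, conjBy A b ∈ T := by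
    intro b hb
    rcases eq_or_ne b 1 with rfl | hb1
    · exact Or.inl (conjBy_one A)
    · obtain ⟨a, ha, -, e⟩ := h.cond_right b⁻¹ (inv_mem hb) (inv_ne_one.mpr hb1)
      rw [inv_inv] at e
      exact Or.inr ⟨a⁻¹, inv_mem ha, e.symm⟩
  have hg : ∀ w : G, w ∈ A ∨ w ∈ B → ∀ C ∈ T, conjBy C w ∈ T := by
    rintro w hw C (rfl | ⟨a, ha, rfl⟩)
    · rcases hw with hw | hw
      · exact Or.inl (conjBy_of_mem hw)
      · exact hBA w hw
    · rw [conjBy_conjBy]
      rcases hw with hw | hw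
      · exact Or.inr ⟨w * a, mul_mem hw ha, rfl⟩
      · rcases eq_or_ne a 1 with rfl | ha1
        · rw [mul_one, conjBy_of_mem hw]
          exact Or.inr ⟨1, one_mem _, (conjBy_one B).symm⟩
        · obtain ⟨b, hb, -, e⟩ := h.cond_left a⁻¹ (inv_mem ha) (inv_ne_one.mpr ha1)
          rw [inv_inv] at e
          rw [← conjBy_conjBy, ← e, conjBy_conjBy]
          exact hBA _ (mul_mem hw (inv_mem hb))
  have key : ∀ w ∈ closure ((A : Set G) ∪ (B : Set G)),
      ∀ C ∈ T, conjBy C w ∈ T ∧ conjBy C w⁻¹ ∈ T := by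
    intro w hw
    induction hw using closure_induction with
    | mem w hw =>
      exact fun C hC => ⟨hg w hw C hC, hg w⁻¹ (hw.imp (fun k => inv_mem (show w ∈ A from k))
        (fun k => inv_mem (show w ∈ B from k))) C hC⟩
    | one => intro C hC; simp [conjBy_one, hC]
    | mul u v _ _ iu iv =>
      intro C hC
      refine ⟨?_, ?_⟩
      · rw [← conjBy_conjBy]; exact (iu _ (iv C hC).1).1
      · rw [mul_inv_rev, ← conjBy_conjBy]; exact (iv _ (iu C hC).2).2
    | inv u _ iu =>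
      intro C hC
      rw [inv_inv]
      exact (iu C hC).symm
  have hstep : ∀ x ∈ A ⊔ B, ∀ C ∈ T, conjBy C x ∈ T :=
    fun x hx C hC => (key x (by rwa [← sup_eq_closure]) C hC).1
  constructor
  · rintro ⟨x, hx, rfl⟩
    exact hstep x hx A (Or.inl rfl)
  · rintro (rfl | ⟨a, ha, rfl⟩)
    · exact ⟨1, one_mem _, (conjBy_one _).symm⟩
    · obtain ⟨b₀, hb₀, hb1⟩ : ∃ b ∈ B, b ≠ 1 := exists_ne_one (A_ne_bot (RankOnePair_symm h))
      obtain ⟨a₀, ha₀, -, e⟩ := h.cond_right b₀ hb₀ hb1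
      refine ⟨a * a₀ * b₀⁻¹, mul_mem (mul_mem (mem_sup_left ha) (mem_sup_left ha₀))
        (inv_mem (mem_sup_right hb₀)), ?_⟩
      rw [← conjBy_conjBy (A) b₀⁻¹ (a * a₀), ← e, conjBy_conjBy, mul_inv_cancel_right]

theorem A_mem_unipotent : A ∈ unipotentSubgroups A B := (unipotent_eq h).mpr (Or.inl rfl)

theorem B_mem_unipotent : B ∈ unipotentSubgroups A B :=
  (unipotent_eq h).mpr (Or.inr ⟨1, one_mem _, (conjBy_one B).symm⟩)

theorem conj_mem_unipotent {C : Subgroup G} (hC : C ∈ unipotentSubgroups A B) {x : G} (hx : x ∈ A ⊔ B) :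
    conjBy C x ∈ unipotentSubgroups A B := by
  obtain ⟨y, hy, rfl⟩ := hC
  exact ⟨x * y, mul_mem hx hy, conjBy_conjBy _ _ _⟩

theorem three_points : ∃ C₁ ∈ unipotentSubgroups A B, ∃ C₂ ∈ unipotentSubgroups A B,
    ∃ C₃ ∈ unipotentSubgroups A B, C₁ ≠ C₂ ∧ C₁ ≠ C₃ ∧ C₂ ≠ C₃ := by
  obtain ⟨a, ha, ha1⟩ := exists_ne_one (A_ne_bot h)
  refine ⟨A, A_mem_unipotent h, B, B_mem_unipotent h, conjBy B a,
    (unipotent_eq h).mpr (Or.inr ⟨a, ha, rfl⟩), h.ne, (conjBy_B_ne h ha).symm, fun e => ha1 ?_⟩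
  exact (eq_of_conjBy_B h (one_mem _) ha (by rw [conjBy_one]; exact e)).symm

theorem regular {C D : Subgroup G} (hC : C ∈ unipotentSubgroups A B) (hD : D ∈ unipotentSubgroups A B)
    (hCA : C ≠ A) (hDA : D ≠ A) : ∃! a : G, a ∈ A ∧ conjBy C a = D := by
  obtain ⟨c, hc, rfl⟩ := ((unipotent_eq h).mp hC).resolve_left hCA
  obtain ⟨d, hd, rfl⟩ := ((unipotent_eq h).mp hD).resolve_left hDA
  refine ⟨d * c⁻¹, ⟨mul_mem hd (inv_mem hc), by rw [conjBy_conjBy, inv_mul_cancel_right]⟩, ?_⟩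
  rintro a ⟨ha, e⟩
  rw [conjBy_conjBy] at e
  rw [← eq_of_conjBy_B h (mul_mem ha hc) hd e, mul_inv_cancel_right]

theorem two_transitive_std {C₁ C₂ : Subgroup G} (h1 : C₁ ∈ unipotentSubgroups A B)
    (h2 : C₂ ∈ unipotentSubgroups A B) (hne : C₁ ≠ C₂) :
    ∃ x ∈ A ⊔ B, conjBy A x = C₁ ∧ conjBy B x = C₂ := by
  obtain ⟨y, hy, rfl⟩ := id h1
  have hC : conjBy C₂ y⁻¹ ∈ unipotentSubgroups A B := conj_mem_unipotent h h2 (inv_mem hy)
  have hCA : conjBy C₂ y⁻¹ ≠ A := fun e => hne (by rw [← e, conjBy_self_inv])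
  obtain ⟨a, ha, e⟩ := ((unipotent_eq h).mp hC).resolve_left hCA
  exact ⟨y * a, mul_mem hy (mem_sup_left ha), by rw [← conjBy_conjBy, conjBy_of_mem ha],
    by rw [← conjBy_conjBy, ← e, conjBy_self_inv]⟩

/-- An element of `A ⊔ B` normalising `A` and `B` and centralising `A` ... fixes every point. -/
theorem fix_all {z : G} (hA : ∀ a ∈ A, z * a = a * z) (hB : z ∈ normalizer (B : Set G)) {C : Subgroup G}
    (hC : C ∈ unipotentSubgroups A B) : conjBy C z = C := by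
  rcases (unipotent_eq h).mp hC with rfl | ⟨a, ha, rfl⟩
  · refine mem_normalizer_iff_conjBy.mp (mem_normalizer_iff.mpr fun x => ⟨fun hx => ?_, fun hx => ?_⟩)
    · rwa [hA x hx, mul_inv_cancel_right]
    · have h3 := hA _ hx
      have h4 : z * x * z⁻¹ = x := by
        calc z * x * z⁻¹ = z⁻¹ * (z * (z * x * z⁻¹)) := by group
          _ = z⁻¹ * ((z * x * z⁻¹) * z) := by rw [h3]
          _ = x := by group
      rwa [h4] at hx
  · rw [conjBy_conjBy, hA a ha, ← conjBy_conjBy, mem_normalizer_iff_conjBy.mp hB]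

end CfsgLib.RootSub
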