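import Cfsg.Agent.Lib.RootSub.RankOnePair
import Mathlib.GroupTheory.Commutator.Basic

/-! Members of a set of abstract root subgroups against a rank one pair. -/

set_option autoImplicit false

namespace CfsgLib.RootSub

open Cfsg Subgroup
open scoped commutatorElement

variable {G : Type*} [Group G] {S : Set (Subgroup G)}

theorem mul_comm_of_commutative (hS : IsRootSubgroupSet S) {A : Subgroup G} (hA : A ∈ S) {a b : G}
    (ha : a ∈ A) (hb : b ∈ A) : a * b = b * a := by
  haveI := hS.commutative A hA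
  exact congrArg Subtype.val (mul_comm' (⟨a, ha⟩ : A) ⟨b, hb⟩)

theorem commute_of_bracket {A B : Subgroup G} (h : ⁅A, B⁆ = ⊥) {a b : G} (ha : a ∈ A) (hb : b ∈ B) :
    a * b = b * a := by
  have h1 := commutator_mem_commutator ha hb
  rw [h, mem_bot] at h1
  exact commutatorElement_eq_one_iff_commute.mp h1

theorem mem_normalizer_of_commute {B : Subgroup G} {z : G} (hz : ∀ x ∈ B, z * x = x * z) :
    z ∈ normalizer (B : Set G) := by
  refine mem_normalizer_iff.mpr fun x => ⟨fun hx => ?_, fun hx => ?_⟩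
  · rwa [hz x hx, mul_inv_cancel_right]
  · have h3 := hz _ hx
    have h4 : z * x * z⁻¹ = x := by
      calc z * x * z⁻¹ = z⁻¹ * (z * (z * x * z⁻¹)) := by group
        _ = z⁻¹ * ((z * x * z⁻¹) * z) := by rw [h3]
        _ = x := by group
    rwa [h4] at hx

theorem not_commute_of_pair {A B : Subgroup G} (h : IsRankOnePair A B) {a : G}
    (ha : a ∈ A) (ha1 : a ≠ 1) : ¬ (∀ b ∈ B, a * b = b * a) := by
  intro hc
  apply ha1
  have : a ∈ A ⊓ normalizer (B : Set G) := mem_inf.mpr ⟨ha, mem_normalizer_of_commute hc⟩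
  rwa [A_inf_normalizer h, mem_bot] at this

/-- A conjugate of `B` by a non-trivial element of `A` does not centralise `B`. -/
theorem not_centralizes {A B : Subgroup G} (h : IsRankOnePair A B) {a : G} (ha : a ∈ A) (ha1 : a ≠ 1) :
    ¬ (∀ x ∈ B, ∀ y ∈ B, (a * x * a⁻¹) * y = y * (a * x * a⁻¹)) := by
  intro hall
  obtain ⟨y, hy, hy1⟩ := exists_ne_one (A_ne_bot (RankOnePair_symm h))
  have hne : conjBy B a ≠ B := fun e =>
    ha1 (eq_of_conjBy_B h ha (one_mem A) (by rw [e, conjBy_one]))
  have hfix : conjBy (conjBy B a) y = conjBy B a := by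
    refine mem_normalizer_iff_conjBy.mp (mem_normalizer_of_commute fun w hw => ?_)
    rw [mem_conjBy] at hw
    have h2 := hall _ hw y hy
    rw [show a * (a⁻¹ * w * a) * a⁻¹ = w by group] at h2
    exact h2.symm
  have hmem : conjBy B a ∈ unipotentSubgroups B A := ⟨a, mem_sup_right ha, rfl⟩
  obtain ⟨u, hu, eu⟩ := ((unipotent_eq (RankOnePair_symm h)).mp hmem).resolve_left hne
  rw [eu, conjBy_conjBy] at hfix
  have := eq_of_conjBy_B (RankOnePair_symm h) (mul_mem hy hu) hu hfix
  exact hy1 (by simpa using this)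

/-- If `z` centralises the rank one pair `(A, B)` and `z * a` lies in a member `F`, then `F = A`. -/
theorem eq_of_mul_mem (hS : IsRootSubgroupSet S) {A B F : Subgroup G} (hB : B ∈ S)
    (hF : F ∈ S) (h : IsRankOnePair A B) {z a : G} (hzA : ∀ x ∈ A, z * x = x * z)
    (hzB : ∀ x ∈ B, z * x = x * z) (ha : a ∈ A) (ha1 : a ≠ 1) (hza : z * a ∈ F) : F = A ∧ z = 1 := by
  have hzN : z ∈ normalizer (B : Set G) := mem_normalizer_of_commute hzB
  rcases hS.pair F hF B hB with hcm | hr | hc
  · exfalso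
    refine not_commute_of_pair h ha ha1 fun b hb => ?_
    have h1 := commute_of_bracket hcm hza hb
    calc a * b = z⁻¹ * ((z * a) * b) := by group
      _ = z⁻¹ * (b * (z * a)) := by rw [h1]
      _ = z⁻¹ * ((b * z) * a) := by rw [mul_assoc b z a]
      _ = z⁻¹ * ((z * b) * a) := by rw [hzB b hb]
      _ = b * a := by group
  · have hza1 : z * a ≠ 1 := by
      intro e
      refine not_commute_of_pair h ha ha1 fun b hb => ?_
      have ha' : a = z⁻¹ := eq_inv_of_mul_eq_one_right e
      rw [ha']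
      calc z⁻¹ * b = z⁻¹ * (b * z) * z⁻¹ := by group
        _ = z⁻¹ * (z * b) * z⁻¹ := by rw [hzB b hb]
        _ = b * z⁻¹ := by group
    obtain ⟨b₀, hb₀, -, e₀⟩ := h.cond_left a ha ha1
    obtain ⟨b, hb, -, e⟩ := hr.cond_left (z * a) hza hza1
    have hBa : conjBy B (z * a)⁻¹ = conjBy B a⁻¹ := by
      rw [mul_inv_rev, ← conjBy_conjBy, mem_normalizer_iff_conjBy.mp (inv_mem hzN)]
    rw [hBa, ← e₀] at e
    have hFA : F = conjBy A (b * b₀⁻¹) := by rw [← conjBy_self_inv F b, e, conjBy_conjBy]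
    rcases eq_or_ne (b * b₀⁻¹) 1 with hf | hf
    · rw [hf, conjBy_one] at hFA
      subst hFA
      refine ⟨rfl, ?_⟩
      have hz : z ∈ F := by
        have := mul_mem hza (inv_mem ha)
        rwa [mul_inv_cancel_right] at this
      by_contra hz1
      exact not_commute_of_pair h hz hz1 hzB
    · exfalso
      have hFΩ : F ∈ unipotentSubgroups A B :=
        ⟨b * b₀⁻¹, mem_sup_right (mul_mem hb (inv_mem hb₀)), hFA⟩
      have hFA' : F ≠ A := fun e' => hf (by
        have h2 : b * b₀⁻¹ ∈ B ⊓ normalizer (A : Set G) := mem_inf.mpr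
          ⟨mul_mem hb (inv_mem hb₀), mem_normalizer_iff_conjBy.mpr (hFA.symm.trans e')⟩
        rwa [B_inf_normalizer h, mem_bot] at h2)
      have h1 : conjBy F a = F := by
        have e' : conjBy F (z * a) = F := conjBy_of_mem hza
        rwa [hzA a ha, ← conjBy_conjBy, fix_all h hzA hzN hFΩ] at e'
      obtain ⟨c, hc', rfl⟩ := ((unipotent_eq h).mp hFΩ).resolve_left hFA'
      rw [conjBy_conjBy] at h1
      exact ha1 (by simpa using eq_of_conjBy_B h (mul_mem ha hc') hc' h1)
  · exfalso
    apply not_centralizes h ha ha1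
    intro x hx y hy
    have hx' : (z * a) * x * (z * a)⁻¹ = a * x * a⁻¹ := by
      have c1 : Commute z (a * x * a⁻¹) := by
        have ca : Commute z a := hzA a ha
        exact (ca.mul_right (hzB x hx)).mul_right ca.inv_right
      calc (z * a) * x * (z * a)⁻¹ = z * (a * x * a⁻¹) * z⁻¹ := by group
        _ = _ := by rw [c1.eq, mul_inv_cancel_right]
    have hmem : ⁅z * a, x⁆ ∈ ⁅F, B⁆ := commutator_mem_commutator hza hx
    have h2 := hc.2.1 _ hmem y (mem_sup_right hy)
    rw [commutatorElement_def, hx'] at h2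
    have hxy : x * y = y * x := mul_comm_of_commutative hS hB hx hy
    calc a * x * a⁻¹ * y = (a * x * a⁻¹ * x⁻¹) * (x * y) := by group
      _ = (a * x * a⁻¹ * x⁻¹) * y * x := by rw [hxy]; simp only [mul_assoc]
      _ = y * (a * x * a⁻¹ * x⁻¹) * x := by rw [h2]
      _ = y * (a * x * a⁻¹) := by group

theorem inf_eq_bot_or_eq (hS : IsRootSubgroupSet S) {A B E : Subgroup G} (hE : E ∈ S)
    (hB : B ∈ S) (h : IsRankOnePair A E) : A ⊓ B = ⊥ ∨ A = B := by
  by_cases hne : A ⊓ B = ⊥
  · exact Or.inl hne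
  · obtain ⟨a, ha, ha1⟩ := exists_ne_one hne
    refine Or.inr (eq_of_mul_mem hS hE hB h (z := 1) (a := a) (fun x _ => by simp) (fun x _ => by simp)
      (mem_inf.mp ha).1 ha1 (by rw [one_mul]; exact (mem_inf.mp ha).2)).1.symm

theorem center_le_two (H : Type*) [Group H] : center H ≤ Subgroup.upperCentralSeries H 2 := by
  rw [← Subgroup.upperCentralSeries_one]
  exact Subgroup.upperCentralSeries_mono H (by norm_num)

theorem commutator_mem_center_of_two {H : Type*} [Group H] {g : H} (hg : g ∈ Subgroup.upperCentralSeries H 2) (x : H) :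
    g * x * g⁻¹ * x⁻¹ ∈ center H := by
  rw [← Subgroup.upperCentralSeries_one]
  exact hg x

end CfsgLib.RootSub
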