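import Cfsg.Agent.S5016

/-! The relations of `SL₂(p)` in terms of two root subgroups. (helper6) -/

set_option autoImplicit false
set_option linter.unusedSectionVars false

namespace CfsgLib.RootSub.SL2Relations

open Subgroup Cfsg.Agent.S5016

variable {p : ℕ} [Fact p.Prime] {G : Type*} [Group G]

/-- Two one-parameter subgroups over `ZMod p` interchanged as in `SL₂(p)`. -/
structure Rel (A B : ZMod p → G) : Prop where
  Aadd : ∀ s t, A (s + t) = A s * A t
  Badd : ∀ s t, B (s + t) = B s * B t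
  swap : ∀ t, t ≠ 0 → A t * B (-t⁻¹) * A t = B (-t⁻¹) * A t * B (-t⁻¹)

/-- The Weyl element with parameter `t`. -/
def n (A B : ZMod p → G) (t : ZMod p) : G := A t * B (-t⁻¹) * A t

/-- The torus element with parameter `t`. -/
def h (A B : ZMod p → G) (t : ZMod p) : G := n A B t * n A B (-1)

theorem zero_of_add {F : ZMod p → G} (hF : ∀ s t, F (s + t) = F s * F t) : F 0 = 1 := by
  have := hF 0 0; rw [add_zero] at this; exact mul_eq_left.mp this.symm

theorem neg_of_add {F : ZMod p → G} (hF : ∀ s t, F (s + t) = F s * F t) (s : ZMod p) : F (-s) = (F s)⁻¹ :=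
  eq_inv_of_mul_eq_one_left (by rw [← hF, neg_add_cancel, zero_of_add hF])

theorem mul_of_add {F : ZMod p → G} (hF : ∀ s t, F (s + t) = F s * F t) (k : ℕ) (t : ZMod p) :
    F ((k : ZMod p) * t) = F t ^ k := by
  induction k with
  | zero => simp [zero_of_add hF]
  | succ k ih => rw [Nat.cast_succ, add_mul, one_mul, hF, ih, pow_succ]

theorem scale {F : ZMod p → G} (hF : ∀ s t, F (s + t) = F s * F t) {t : ZMod p} (ht : t ≠ 0) (s : ZMod p) :
    F s = F t ^ (s / t).val := by
  rw [← mul_of_add hF, ZMod.natCast_zmod_val, div_mul_cancel₀ _ ht]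

variable {A B : ZMod p → G} (r : Rel A B)
include r

theorem n_inv (t : ZMod p) : (n A B t)⁻¹ = n A B (-t) := by
  simp only [n, mul_inv_rev, ← neg_of_add r.Aadd, ← neg_of_add r.Badd, inv_neg, neg_neg, mul_assoc]

theorem n_A {t : ZMod p} (ht : t ≠ 0) (s : ZMod p) : n A B t * A s = B (-s / t ^ 2) * n A B t := by
  have h0 : SemiconjBy (n A B t) (A t) (B (-t⁻¹)) := by
    show n A B t * A t = B (-t⁻¹) * n A B t
    unfold n
    conv_lhs => rw [r.swap t ht]
    simp only [mul_assoc]
  have h1 := h0.pow_right (s / t).val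
  rw [← scale r.Aadd ht, ← mul_of_add r.Badd, ZMod.natCast_zmod_val] at h1
  have e : -s / t ^ 2 = s / t * -t⁻¹ := by field_simp
  rw [e]
  exact h1

theorem n_B {t : ZMod p} (ht : t ≠ 0) (s : ZMod p) : n A B t * B s = A (-(t ^ 2 * s)) * n A B t := by
  have h0 : SemiconjBy (n A B t) (B (-t⁻¹)) (A t) := by
    show n A B t * B (-t⁻¹) = A t * n A B t
    unfold n
    conv_rhs => rw [r.swap t ht]
    simp only [mul_assoc]
  have ht' : -t⁻¹ ≠ 0 := neg_ne_zero.mpr (inv_ne_zero ht)
  have h1 := h0.pow_right (s / -t⁻¹).val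
  rw [← scale r.Badd ht', ← mul_of_add r.Aadd, ZMod.natCast_zmod_val] at h1
  have e : -(t ^ 2 * s) = s / -t⁻¹ * t := by field_simp
  rw [e]
  exact h1

theorem n_n {s u : ZMod p} (hs : s ≠ 0) (hu : u ≠ 0) :
    n A B s * n A B u = n A B (s ^ 2 / u) * n A B s := by
  have hv : s ^ 2 / u ≠ 0 := div_ne_zero (pow_ne_zero 2 hs) hu
  calc n A B s * n A B u = n A B s * A u * B (-u⁻¹) * A u := by simp only [n, mul_assoc]
    _ = B (-u / s ^ 2) * (n A B s * B (-u⁻¹)) * A u := by rw [n_A r hs]; simp only [mul_assoc]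
    _ = B (-u / s ^ 2) * A (-(s ^ 2 * -u⁻¹)) * (n A B s * A u) := by rw [n_B r hs]; simp only [mul_assoc]
    _ = B (-u / s ^ 2) * A (-(s ^ 2 * -u⁻¹)) * B (-u / s ^ 2) * n A B s := by rw [n_A r hs]; simp only [mul_assoc]
    _ = n A B (s ^ 2 / u) * n A B s := by
      congr 1
      rw [n, r.swap _ hv]
      congr <;> field_simp

theorem h_one : h A B 1 = 1 := by rw [h, ← n_inv r, mul_inv_cancel]

theorem h_n_one (t : ZMod p) : h A B t * n A B 1 = n A B t := by
  rw [h, mul_assoc, ← n_inv r, inv_mul_cancel, mul_one]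

theorem h_B {t : ZMod p} (ht : t ≠ 0) (s : ZMod p) : h A B t * B s = B (s / t ^ 2) * h A B t := by
  rw [h, mul_assoc, n_B r (neg_ne_zero.mpr one_ne_zero), ← mul_assoc, n_A r ht, mul_assoc]
  congr 2; ring

theorem h_A {t : ZMod p} (ht : t ≠ 0) (s : ZMod p) : h A B t * A s = A (t ^ 2 * s) * h A B t := by
  rw [h, mul_assoc, n_A r (neg_ne_zero.mpr one_ne_zero), ← mul_assoc, n_B r ht, mul_assoc]
  congr 2; ring

theorem h_n {t u : ZMod p} (ht : t ≠ 0) (hu : u ≠ 0) :
    h A B t * n A B u = n A B (t ^ 2 * u) * h A B t := by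
  calc h A B t * n A B u = h A B t * A u * B (-u⁻¹) * A u := by simp only [n, mul_assoc]
    _ = A (t ^ 2 * u) * (h A B t * B (-u⁻¹)) * A u := by rw [h_A r ht]; simp only [mul_assoc]
    _ = A (t ^ 2 * u) * B (-u⁻¹ / t ^ 2) * (h A B t * A u) := by rw [h_B r ht]; simp only [mul_assoc]
    _ = n A B (t ^ 2 * u) * h A B t := by
      rw [h_A r ht]
      simp only [n, ← mul_assoc]
      congr <;> field_simp

variable (gen : closure (Set.range A ∪ Set.range B) = ⊤)
include gen

theorem central {x : G} (hA : ∀ s, x * A s = A s * x) (hB : ∀ s, x * B s = B s * x) : x ∈ center G := by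
  have hle : closure (Set.range A ∪ Set.range B) ≤ centralizer ({x} : Set G) := by
    rw [closure_le]
    rintro _ (⟨s, rfl⟩ | ⟨s, rfl⟩)
    · exact mem_centralizer_singleton_iff.mpr (hA s).symm
    · exact mem_centralizer_singleton_iff.mpr (hB s).symm
  exact mem_center_iff.mpr fun y => mem_centralizer_singleton_iff.mp (hle (gen ▸ mem_top y))

theorem h_comm {t u : ZMod p} (ht : t ≠ 0) (hu : u ≠ 0) : h A B t * h A B u = h A B u * h A B t := by
  obtain ⟨g, hg⟩ := IsCyclic.exists_monoid_generator (α := (ZMod p)ˣ)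
  have key : ∀ i : ℕ, ∃ z ∈ center G, h A B ((g : ZMod p) ^ i) = h A B (g : ZMod p) ^ i * z := by
    intro i
    induction i with
    | zero => exact ⟨1, one_mem _, by simp [h_one r]⟩
    | succ i ih =>
      obtain ⟨z, hz, e⟩ := ih
      have hgi : (g : ZMod p) ^ i ≠ 0 := pow_ne_zero _ g.ne_zero
      have hgi1 : (g : ZMod p) ^ (i + 1) ≠ 0 := pow_ne_zero _ g.ne_zero
      have hz' : (h A B ((g : ZMod p) ^ i) * h A B (g : ZMod p))⁻¹ * h A B ((g : ZMod p) ^ (i + 1)) ∈ center G := by
        refine central r gen (fun s => ?_) fun s => ?_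
        · have eP : SemiconjBy (h A B ((g : ZMod p) ^ i) * h A B (g : ZMod p)) (A s)
              (A (((g : ZMod p) ^ (i + 1)) ^ 2 * s)) := by
            rw [show ((g : ZMod p) ^ (i + 1)) ^ 2 * s = ((g : ZMod p) ^ i) ^ 2 * ((g : ZMod p) ^ 2 * s) by ring]
            exact SemiconjBy.mul_left (h_A r hgi _) (h_A r g.ne_zero s)
          exact (SemiconjBy.mul_left eP.inv_symm_left (h_A r hgi1 s)).eq
        · have eP : SemiconjBy (h A B ((g : ZMod p) ^ i) * h A B (g : ZMod p)) (B s)
              (B (s / ((g : ZMod p) ^ (i + 1)) ^ 2)) := by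
            rw [show s / ((g : ZMod p) ^ (i + 1)) ^ 2 = s / (g : ZMod p) ^ 2 / ((g : ZMod p) ^ i) ^ 2 by field_simp; ring]
            exact SemiconjBy.mul_left (h_B r hgi _) (h_B r g.ne_zero s)
          exact (SemiconjBy.mul_left eP.inv_symm_left (h_B r hgi1 s)).eq
      refine ⟨z * ((h A B ((g : ZMod p) ^ i) * h A B (g : ZMod p))⁻¹ * h A B ((g : ZMod p) ^ (i + 1))), mul_mem hz hz', ?_⟩
      rw [e, pow_succ (h A B (g : ZMod p))]
      have hzc : h A B (g : ZMod p) * z = z * h A B (g : ZMod p) := mem_center_iff.mp hz _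
      calc h A B ((g : ZMod p) ^ (i + 1)) = h A B (g : ZMod p) ^ i * (z * h A B (g : ZMod p)) *
            ((h A B (g : ZMod p) ^ i * z * h A B (g : ZMod p))⁻¹ * h A B ((g : ZMod p) ^ (i + 1))) := by group
        _ = _ := by rw [← hzc]; simp only [mul_assoc]
  obtain ⟨i, hi⟩ := Submonoid.mem_powers_iff _ _ |>.mp (hg (Units.mk0 t ht))
  obtain ⟨j, hj⟩ := Submonoid.mem_powers_iff _ _ |>.mp (hg (Units.mk0 u hu))
  have hi' : (g : ZMod p) ^ i = t := by simpa using congrArg Units.val hi
  have hj' : (g : ZMod p) ^ j = u := by simpa using congrArg Units.val hj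
  obtain ⟨z, hz, ez⟩ := key i
  obtain ⟨y, hy, ey⟩ := key j
  rw [hi'] at ez; rw [hj'] at ey
  rw [ez, ey]
  have cz : ∀ a, Commute z a := fun a => (mem_center_iff.mp hz a).symm
  have cy : ∀ a, Commute y a := fun a => (mem_center_iff.mp hy a).symm
  exact ((((Commute.refl _).pow_pow i j).mul_right (cy _).symm).mul_left (cz _))

theorem h_sq_mul {t u : ZMod p} (ht : t ≠ 0) (hu : u ≠ 0) :
    h A B (t ^ 2 * u) = h A B (t ^ 2) * h A B u := by
  have h1 := h_n r ht hu
  have h2 := h_n r ht (one_ne_zero (α := ZMod p))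
  rw [mul_one] at h2
  have hc := h_comm r gen ht hu
  have hc2 := h_comm r gen (pow_ne_zero 2 ht) hu
  rw [hc2]
  calc h A B (t ^ 2 * u) = n A B (t ^ 2 * u) * n A B (-1) := rfl
    _ = h A B t * n A B u * (h A B t)⁻¹ * n A B (-1) := by rw [h1, mul_inv_cancel_right]
    _ = h A B t * h A B u * n A B 1 * (h A B t)⁻¹ * n A B (-1) := by rw [mul_assoc (h A B t) (h A B u), h_n_one r]
    _ = h A B u * (h A B t * n A B 1) * (h A B t)⁻¹ * n A B (-1) := by rw [hc]; simp only [mul_assoc]
    _ = h A B u * n A B (t ^ 2) * n A B (-1) := by rw [h2]; group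
    _ = h A B u * h A B (t ^ 2) := by rw [mul_assoc]; rfl

theorem h_add_one {u v : ZMod p} (hu : u ≠ 0) (hv : v ≠ 0) (huv : u + v = 1) :
    h A B u * h A B v = h A B (u * v) := by
  have hA : ∀ w : ZMod p, w ≠ 0 → A w = B w⁻¹ * n A B w * B w⁻¹ := fun w hw => by
    rw [n, r.swap w hw, neg_of_add r.Badd]; group
  have hx : u * v ≠ 0 := mul_ne_zero hu hv
  have hBx : B (u * v)⁻¹ = A (u * v) * n A B (-(u * v)) * A (u * v) := by
    rw [n, neg_of_add r.Aadd, inv_neg, neg_neg]; group
  have hx1 : A (u * v) * n A B v = n A B v * B (-(u * v) / v ^ 2) := by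
    rw [n_B r hv]; congr 2; field_simp
  have key : A 1 = B 1 * (n A B u * n A B (-(u * v)) * n A B v) * B 1 := by
    calc A 1 = A u * A v := by rw [← r.Aadd, huv]
      _ = B u⁻¹ * n A B u * (B u⁻¹ * B v⁻¹) * n A B v * B v⁻¹ := by rw [hA u hu, hA v hv]; simp only [mul_assoc]
      _ = B u⁻¹ * n A B u * B (u * v)⁻¹ * n A B v * B v⁻¹ := by
        rw [← r.Badd, show u⁻¹ + v⁻¹ = (u * v)⁻¹ by field_simp; linear_combination huv]
      _ = B u⁻¹ * (n A B u * A (u * v)) * n A B (-(u * v)) * (A (u * v) * n A B v) * B v⁻¹ := by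
        rw [hBx]; simp only [mul_assoc]
      _ = (B u⁻¹ * B (-(u * v) / u ^ 2)) * (n A B u * n A B (-(u * v)) * n A B v) *
            (B (-(u * v) / v ^ 2) * B v⁻¹) := by rw [n_A r hu, hx1]; simp only [mul_assoc]
      _ = _ := by
        rw [← r.Badd, ← r.Badd, show u⁻¹ + -(u * v) / u ^ 2 = 1 by field_simp; linear_combination -huv,
          show -(u * v) / v ^ 2 + v⁻¹ = 1 by field_simp; linear_combination -huv]
  rw [hA 1 one_ne_zero, inv_one] at key
  have key2 : n A B u * n A B (-(u * v)) * n A B v = n A B 1 := (mul_left_cancel (mul_right_cancel key)).symm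
  rw [← n_inv r, ← h_n_one r u, ← h_n_one r (u * v), ← h_n_one r v] at key2
  have key3 : h A B u * (h A B (u * v))⁻¹ * h A B v = 1 := by
    refine mul_right_cancel (b := n A B 1) (Eq.trans ?_ ((one_mul _).symm))
    refine Eq.trans ?_ key2
    group
  have hc := h_comm r gen hx hv
  calc h A B u * h A B v = h A B u * (h A B (u * v))⁻¹ * (h A B (u * v) * h A B v) := by group
    _ = h A B u * (h A B (u * v))⁻¹ * h A B v * h A B (u * v) := by rw [hc]; simp only [mul_assoc]
    _ = h A B (u * v) := by rw [key3, one_mul]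

theorem h_mul {t u : ZMod p} (ht : t ≠ 0) (hu : u ≠ 0) : h A B (t * u) = h A B t * h A B u := by
  classical
  by_cases hsq : ∀ x : ZMod p, IsSquare x
  · obtain ⟨s, rfl⟩ := hsq t
    have hs : s ≠ 0 := fun e => ht (by rw [e, mul_zero])
    rw [← pow_two]; exact h_sq_mul r gen hs hu
  push Not at hsq
  obtain ⟨g, hg⟩ := hsq
  have hg0 : g ≠ 0 := fun e => hg (e ▸ IsSquare.zero)
  have hdec : ∀ x : ZMod p, x ≠ 0 → (∃ s, s ≠ 0 ∧ x = s ^ 2) ∨ ∃ s, s ≠ 0 ∧ x = s ^ 2 * g := by
    intro x hx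
    by_cases hxs : IsSquare x
    · obtain ⟨s, rfl⟩ := hxs
      exact Or.inl ⟨s, fun e => hx (by rw [e, mul_zero]), (pow_two s).symm⟩
    · right
      have : IsSquare (x * g) := by
        rw [← quadraticChar_one_iff_isSquare (mul_ne_zero hx hg0), map_mul,
          quadraticChar_neg_one_iff_not_isSquare.mpr hxs, quadraticChar_neg_one_iff_not_isSquare.mpr hg]
        norm_num
      obtain ⟨s, hs⟩ := this
      have hs0 : s ≠ 0 := fun e => mul_ne_zero hx hg0 (by rw [hs, e, mul_zero])
      refine ⟨s / g, div_ne_zero hs0 hg0, ?_⟩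
      field_simp
      linear_combination hs
  have hgg : h A B (g ^ 2) = h A B g * h A B g := by
    obtain ⟨w, hw, hw'⟩ : ∃ w : ZMod p, ¬ IsSquare w ∧ ¬ IsSquare (1 - w) := by
      by_contra hcon
      push Not at hcon
      have h1 : ((Finset.univ : Finset (ZMod p)).filter fun x => IsSquare x ∧ x ≠ 0).card ≤
          ((Finset.univ : Finset (ZMod p)).filter fun x => ¬ IsSquare x).card := by
        refine Finset.card_le_card_of_injOn (fun x => x * g) ?_ (mul_left_injective₀ hg0).injOn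
        intro x hx
        simp only [Finset.coe_filter, Finset.mem_univ, true_and, Set.mem_setOf_eq] at hx ⊢
        obtain ⟨⟨s, rfl⟩, hx0⟩ := hx
        rintro ⟨z, hz⟩
        exact hg ⟨z / s, by
          have : s ≠ 0 := fun e => hx0 (by rw [e, mul_zero])
          field_simp; linear_combination hz⟩
      have h2 : ((Finset.univ : Finset (ZMod p)).filter fun x => ¬ IsSquare x).card ≤
          (((Finset.univ : Finset (ZMod p)).filter fun x => IsSquare x ∧ x ≠ 0).erase 1).card := by
        refine Finset.card_le_card_of_injOn (fun x => 1 - x) ?_ sub_right_injective.injOn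
        intro x hx
        simp only [Finset.coe_filter, Finset.coe_erase, Finset.mem_univ, true_and, Set.mem_setOf_eq,
          Set.mem_sdiff, Set.mem_singleton_iff] at hx ⊢
        exact ⟨⟨hcon x hx, fun e => hx ⟨1, by linear_combination -e⟩⟩, fun e => hx ⟨0, by linear_combination -e⟩⟩
      have h3 : (1 : ZMod p) ∈ (Finset.univ : Finset (ZMod p)).filter fun x => IsSquare x ∧ x ≠ 0 := by simp
      rw [Finset.card_erase_of_mem h3] at h2
      have := Finset.card_pos.mpr ⟨_, h3⟩
      omega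
    have hw0 : w ≠ 0 := fun e => hw (e ▸ IsSquare.zero)
    have hv0 : (1 - w : ZMod p) ≠ 0 := fun e => hw' (e ▸ IsSquare.zero)
    obtain ⟨s, hs, e1⟩ := (hdec w hw0).resolve_left fun ⟨s, _, e⟩ => hw ⟨s, by rw [e, pow_two]⟩
    obtain ⟨s', hs', e2⟩ := (hdec _ hv0).resolve_left fun ⟨s, _, e⟩ => hw' ⟨s, by rw [e, pow_two]⟩
    have key := h_add_one r gen hw0 hv0 (add_sub_cancel w 1)
    have hg2 := pow_ne_zero 2 hg0
    rw [e2, e1, h_sq_mul r gen hs hg0, h_sq_mul r gen hs' hg0,
      show s ^ 2 * g * (s' ^ 2 * g) = (s * s') ^ 2 * g ^ 2 by ring, h_sq_mul r gen (mul_ne_zero hs hs') hg2,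
      mul_pow s s', h_sq_mul r gen hs (pow_ne_zero 2 hs')] at key
    have hc := h_comm r gen hg0 (pow_ne_zero 2 hs')
    have : h A B (s ^ 2) * h A B (s' ^ 2) * (h A B g * h A B g) =
        h A B (s ^ 2) * h A B (s' ^ 2) * h A B (g ^ 2) := by
      rw [← key]
      calc h A B (s ^ 2) * h A B (s' ^ 2) * (h A B g * h A B g)
          = h A B (s ^ 2) * (h A B (s' ^ 2) * h A B g) * h A B g := by simp only [mul_assoc]
        _ = h A B (s ^ 2) * (h A B g * h A B (s' ^ 2)) * h A B g := by rw [hc]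
        _ = _ := by simp only [mul_assoc]
    exact (mul_left_cancel this).symm
  rcases hdec t ht with ⟨s, hs, rfl⟩ | ⟨s, hs, rfl⟩
  · exact h_sq_mul r gen hs hu
  · rw [mul_assoc, h_sq_mul r gen hs (mul_ne_zero hg0 hu), h_sq_mul r gen hs hg0, mul_assoc]
    congr 1
    rcases hdec u hu with ⟨s', hs', rfl⟩ | ⟨s', hs', rfl⟩
    · rw [mul_comm g, h_sq_mul r gen hs' hg0, h_comm r gen hg0 (pow_ne_zero 2 hs')]
    · rw [show g * (s' ^ 2 * g) = s' ^ 2 * g ^ 2 by ring, h_sq_mul r gen hs' (pow_ne_zero 2 hg0),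
        h_sq_mul r gen hs' hg0, hgg, ← mul_assoc, ← mul_assoc, h_comm r gen hg0 (pow_ne_zero 2 hs')]

/-- The Bruhat normal form. -/
def Form (A B : ZMod p → G) (x : G) : Prop :=
  (∃ t : ZMod p, t ≠ 0 ∧ ∃ i j, x = B i * n A B t * B j) ∨ (∃ t : ZMod p, t ≠ 0 ∧ ∃ j, x = h A B t * B j)

theorem form (x : G) : Form A B x := by
  have hBs : ∀ s y, Form A B y → Form A B (B s * y) := by
    rintro s y (⟨t, ht, i, j, rfl⟩ | ⟨t, ht, j, rfl⟩)
    · exact Or.inl ⟨t, ht, s + i, j, by rw [r.Badd]; simp only [mul_assoc]⟩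
    · refine Or.inr ⟨t, ht, t ^ 2 * s + j, ?_⟩
      rw [r.Badd, ← mul_assoc, ← mul_assoc, h_B r ht (t ^ 2 * s), mul_div_cancel_left₀ _ (pow_ne_zero 2 ht)]
  have hn11 : n A B 1 * n A B 1 = h A B (-1) := by
    have e : (n A B 1 * n A B 1)⁻¹ = h A B (-1) := by rw [mul_inv_rev, n_inv r]; rfl
    have h2 := h_mul r gen (neg_ne_zero.mpr (one_ne_zero (α := ZMod p))) (neg_ne_zero.mpr one_ne_zero)
    rw [neg_mul_neg, one_mul, h_one r] at h2
    rw [← inv_inv (n A B 1 * n A B 1), e]
    exact inv_eq_of_mul_eq_one_left h2.symm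
  have hA1 : A 1 = B 1 * n A B 1 * B 1 := by
    rw [n, r.swap 1 one_ne_zero, inv_one, neg_of_add r.Badd]; group
  have hA : ∀ y, Form A B y → Form A B (A 1 * y) := by
    rintro y (⟨t, ht, i, j, rfl⟩ | ⟨t, ht, j, rfl⟩)
    · rcases eq_or_ne (1 + i) 0 with hz | hz
      · have e : A 1 * (B i * n A B t * B j) = B 1 * (h A B (1 / t * -1) * B j) := by
          rw [hA1, h_mul r gen (one_div_ne_zero ht) (neg_ne_zero.mpr one_ne_zero), ← hn11, ← mul_assoc (h A B _),
            h_n_one r]
          have := n_n r one_ne_zero ht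
          rw [one_pow] at this
          rw [← this]
          calc B 1 * n A B 1 * B 1 * (B i * n A B t * B j)
              = B 1 * n A B 1 * (B 1 * B i) * n A B t * B j := by simp only [mul_assoc]
            _ = _ := by rw [← r.Badd, hz, zero_of_add r.Badd]; simp only [mul_one, mul_assoc]
        rw [e]
        exact hBs 1 _ (Or.inr ⟨_, mul_ne_zero (one_div_ne_zero ht) (neg_ne_zero.mpr one_ne_zero), j, rfl⟩)
      · set z := 1 + i with hzdef
        have hzi : z⁻¹ ≠ 0 := inv_ne_zero hz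
        refine Or.inl ⟨z * t, mul_ne_zero hz ht, 1 + -z⁻¹, -z⁻¹ / t ^ 2 + j, ?_⟩
        have hBz : B z = A z⁻¹ * n A B (-z⁻¹) * A z⁻¹ := by
          rw [n, neg_of_add r.Aadd, inv_neg, neg_neg, inv_inv]; group
        have h1 : n A B 1 * A z⁻¹ = B (-z⁻¹) * n A B 1 := by rw [n_A r one_ne_zero, one_pow, div_one]
        have h2 : A z⁻¹ * n A B t = n A B t * B (-z⁻¹ / t ^ 2) := by
          rw [n_B r ht]; congr 2; field_simp
        have h3 : n A B 1 * n A B (-z⁻¹) * n A B t = n A B (z * t) := by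
          rw [n_n r one_ne_zero (neg_ne_zero.mpr hzi), one_pow, ← h_n_one r (1 / -z⁻¹), mul_assoc (h A B _), hn11,
            ← h_mul r gen (by simp [hzi, hz]) (neg_ne_zero.mpr one_ne_zero), ← h_n_one r t, ← mul_assoc,
            ← h_mul r gen (by simp [hzi, hz]) ht, h_n_one r]
          congr 1; field_simp
        rw [hA1, r.Badd, r.Badd, ← h3]
        calc B 1 * n A B 1 * B 1 * (B i * n A B t * B j) = B 1 * n A B 1 * B z * n A B t * B j := by
              rw [hzdef, r.Badd]; simp only [mul_assoc]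
          _ = B 1 * (n A B 1 * A z⁻¹) * n A B (-z⁻¹) * (A z⁻¹ * n A B t) * B j := by rw [hBz]; simp only [mul_assoc]
          _ = _ := by rw [h1, h2]; simp only [mul_assoc]
    · refine Or.inl ⟨1 / t, one_div_ne_zero ht, 1, t ^ 2 + j, ?_⟩
      have h1 : B 1 * h A B t = h A B t * B (t ^ 2) := by
        rw [h_B r ht, div_self (pow_ne_zero 2 ht)]
      have h2 : n A B 1 * h A B t = n A B (1 / t) := by
        rw [h, ← mul_assoc, n_n r one_ne_zero ht, one_pow, mul_assoc, ← n_inv r, mul_inv_cancel, mul_one]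
      rw [hA1, r.Badd, ← h2]
      calc B 1 * n A B 1 * B 1 * (h A B t * B j) = B 1 * n A B 1 * (B 1 * h A B t) * B j := by simp only [mul_assoc]
        _ = _ := by rw [h1]; simp only [mul_assoc]
  have hAs : ∀ s y, Form A B y → Form A B (A s * y) := by
    intro s y hy
    rw [← ZMod.natCast_zmod_val s, ← mul_one (s.val : ZMod p), mul_of_add r.Aadd]
    induction s.val with
    | zero => simpa using hy
    | succ k ih => rw [pow_succ', mul_assoc]; exact hA _ ih
  have hx : x ∈ closure (Set.range A ∪ Set.range B) := gen ▸ mem_top x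
  induction hx using closure_induction_left with
  | one => exact Or.inr ⟨1, one_ne_zero, 0, by rw [h_one r, one_mul, zero_of_add r.Badd]⟩
  | mul_left a ha y _ ih =>
    rcases ha with ⟨s, rfl⟩ | ⟨s, rfl⟩
    · exact hAs s y ih
    · exact hBs s y ih
  | inv_mul_cancel a ha y _ ih =>
    rcases ha with ⟨s, rfl⟩ | ⟨s, rfl⟩
    · rw [← neg_of_add r.Aadd]; exact hAs _ y ih
    · rw [← neg_of_add r.Badd]; exact hBs _ y ih

end CfsgLib.RootSub.SL2Relations

namespace CfsgLib.RootSub.SL2Relations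

open Subgroup Cfsg.Agent.S5016 Matrix

variable {p : ℕ} [Fact p.Prime] {Y : Type*} [Group Y]

theorem rel_SL : Rel (L : ZMod p → Matrix.SpecialLinearGroup (Fin 2) (ZMod p)) U := by
  refine ⟨fun s t => (L_mul s t).symm, fun s t => (U_mul s t).symm, fun t ht => Subtype.ext ?_⟩
  simp only [Matrix.SpecialLinearGroup.coe_mul, U_coe, L_coe, Matrix.mul_fin_two]
  ext i j; fin_cases i <;> fin_cases j <;> simp [ht]

theorem n_coe {t : ZMod p} (ht : t ≠ 0) :
    ((n L U t : Matrix.SpecialLinearGroup (Fin 2) (ZMod p)) : Matrix (Fin 2) (Fin 2) (ZMod p)) = !![0, -t⁻¹; t, 0] := by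
  simp only [n, Matrix.SpecialLinearGroup.coe_mul, U_coe, L_coe, Matrix.mul_fin_two]
  ext i j; fin_cases i <;> fin_cases j <;> simp [ht]

theorem h_coe {t : ZMod p} (ht : t ≠ 0) :
    ((h L U t : Matrix.SpecialLinearGroup (Fin 2) (ZMod p)) : Matrix (Fin 2) (Fin 2) (ZMod p)) = !![t⁻¹, 0; 0, t] := by
  rw [h, Matrix.SpecialLinearGroup.coe_mul, n_coe ht, n_coe (neg_ne_zero.mpr one_ne_zero)]
  simp [Matrix.mul_fin_two]

theorem exists_hom {A B : ZMod p → Y} (r : Rel A B) :
    ∃ φ : Matrix.SpecialLinearGroup (Fin 2) (ZMod p) →* Y, (∀ s, φ (L s) = A s) ∧ ∀ s, φ (U s) = B s := by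
  set K : Subgroup (Matrix.SpecialLinearGroup (Fin 2) (ZMod p) × Y) :=
    closure (Set.range (fun s => (L s, A s)) ∪ Set.range fun s => (U s, B s)) with hK
  let A' : ZMod p → K := fun s => ⟨(L s, A s), subset_closure (Or.inl ⟨s, rfl⟩)⟩
  let B' : ZMod p → K := fun s => ⟨(U s, B s), subset_closure (Or.inr ⟨s, rfl⟩)⟩
  have rK : Rel A' B' := by
    refine ⟨fun s t => Subtype.ext (Prod.ext ?_ ?_), fun s t => Subtype.ext (Prod.ext ?_ ?_),
      fun t ht => Subtype.ext (Prod.ext ?_ ?_)⟩
    exacts [rel_SL.Aadd s t, r.Aadd s t, rel_SL.Badd s t, r.Badd s t, rel_SL.swap t ht, r.swap t ht]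
  have gen : closure (Set.range A' ∪ Set.range B') = (⊤ : Subgroup K) := by
    apply Subgroup.map_injective K.subtype_injective
    rw [MonoidHom.map_closure, ← MonoidHom.range_eq_map, Subgroup.range_subtype, Set.image_union,
      ← Set.range_comp, ← Set.range_comp]
    rfl
  set f : K →* Matrix.SpecialLinearGroup (Fin 2) (ZMod p) := (MonoidHom.fst _ _).comp K.subtype with hf
  have hfA : ∀ s, f (A' s) = L s := fun s => rfl
  have hfB : ∀ s, f (B' s) = U s := fun s => rfl
  have hfn : ∀ t, f (n A' B' t) = n L U t := fun t => by simp only [n, map_mul, hfA, hfB]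
  have hinj : Function.Injective f := by
    rw [injective_iff_map_eq_one]
    intro x hx
    rcases form rK gen x with ⟨t, ht, i, j, rfl⟩ | ⟨t, ht, j, rfl⟩
    · exfalso
      rw [map_mul, map_mul, hfB, hfB, hfn] at hx
      have e := congrArg (fun g : Matrix.SpecialLinearGroup (Fin 2) (ZMod p) => (g : Matrix (Fin 2) (Fin 2) (ZMod p)) 1 0) hx
      simp [n_coe ht, U_coe, Matrix.mul_fin_two] at e
      exact ht e
    · rw [map_mul, hfB, h, map_mul, hfn, hfn, ← h] at hx
      have e := congrArg (fun g : Matrix.SpecialLinearGroup (Fin 2) (ZMod p) => (g : Matrix (Fin 2) (Fin 2) (ZMod p)) 1 1) hx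
      have e' := congrArg (fun g : Matrix.SpecialLinearGroup (Fin 2) (ZMod p) => (g : Matrix (Fin 2) (Fin 2) (ZMod p)) 0 1) hx
      simp [h_coe ht, U_coe, Matrix.mul_fin_two] at e e'
      subst e
      have hj : j = 0 := by simpa using e'
      rw [hj, h_one rK, one_mul, zero_of_add rK.Badd]
  have hsurj : Function.Surjective f := by
    rw [← MonoidHom.range_eq_top, eq_top_iff, ← top_eq, sup_le_iff]
    constructor <;> intro g hg
    · obtain ⟨s, rfl⟩ := mem_lower.mp hg; exact ⟨_, hfA s⟩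
    · obtain ⟨s, rfl⟩ := mem_upper.mp hg; exact ⟨_, hfB s⟩
  let e := MulEquiv.ofBijective f ⟨hinj, hsurj⟩
  refine ⟨(MonoidHom.snd _ _).comp (K.subtype.comp e.symm.toMonoidHom), fun s => ?_, fun s => ?_⟩
  · show (e.symm (L s)).1.2 = A s
    rw [show L s = e (A' s) from (hfA s).symm, e.symm_apply_apply]
  · show (e.symm (U s)).1.2 = B s
    rw [show U s = e (B' s) from (hfB s).symm, e.symm_apply_apply]

theorem iso {A B : ZMod p → Y} (r : Rel A B) (gen : closure (Set.range A ∪ Set.range B) = ⊤)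
    (hBinj : ∀ s, B s = 1 → s = 0) (hAinj : ∀ s, A s = 1 → s = 0) (hdis : ∀ s t, A s = B t → A s = 1) :
    Nonempty (Y ≃* Matrix.SpecialLinearGroup (Fin 2) (ZMod p)) ∨
      Nonempty (Y ≃* Matrix.ProjectiveSpecialLinearGroup (Fin 2) (ZMod p)) := by
  obtain ⟨φ, hA, hB⟩ := exists_hom r
  have hsurj : Function.Surjective φ := by
    rw [← MonoidHom.range_eq_top, eq_top_iff, ← gen, closure_le]
    rintro _ (⟨s, rfl⟩ | ⟨s, rfl⟩)
    exacts [⟨_, hA s⟩, ⟨_, hB s⟩]
  have key : ∀ g, φ g = 1 → (g : Matrix (Fin 2) (Fin 2) (ZMod p)) = 1 ∨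
      (g : Matrix (Fin 2) (Fin 2) (ZMod p)) = -1 := by
    intro g hg
    set a := (g : Matrix (Fin 2) (Fin 2) (ZMod p)) 0 0 with ha
    set b := (g : Matrix (Fin 2) (Fin 2) (ZMod p)) 0 1 with hb
    set c := (g : Matrix (Fin 2) (Fin 2) (ZMod p)) 1 0 with hc
    set d := (g : Matrix (Fin 2) (Fin 2) (ZMod p)) 1 1 with hd
    have hdet : a * d - b * c = 1 := by
      have := g.2; rw [Matrix.det_fin_two] at this; exact this
    have hc0 : c = 0 := by
      by_contra hcne
      have e : g = U ((a - 1) / c) * L c * U ((d - 1) / c) := by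
        apply Subtype.ext
        simp only [Matrix.SpecialLinearGroup.coe_mul, U_coe, L_coe, Matrix.mul_fin_two]
        ext i j; fin_cases i <;> fin_cases j <;> simp [← ha, ← hb, ← hc, ← hd]
        all_goals field_simp
        all_goals first | linear_combination hdet | linear_combination -hdet | grind
      rw [e, map_mul, map_mul, hA, hB, hB] at hg
      have : A c = B (-((a - 1) / c + (d - 1) / c)) := by
        rw [neg_of_add r.Badd, add_comm, r.Badd]
        calc A c = (B ((a - 1) / c))⁻¹ * (B ((a - 1) / c) * A c * B ((d - 1) / c)) * (B ((d - 1) / c))⁻¹ := by group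
          _ = (B ((d - 1) / c) * B ((a - 1) / c))⁻¹ := by rw [hg, mul_one, _root_.mul_inv_rev]
      exact hcne (hAinj c (hdis _ _ this))
    have hb0 : b = 0 := by
      by_contra hbne
      have e : g = L ((d - 1) / b) * U b * L ((a - 1) / b) := by
        apply Subtype.ext
        simp only [Matrix.SpecialLinearGroup.coe_mul, U_coe, L_coe, Matrix.mul_fin_two]
        ext i j; fin_cases i <;> fin_cases j <;> simp [← ha, ← hb, ← hc, ← hd]
        all_goals field_simp
        all_goals first | linear_combination hdet | linear_combination -hdet | grind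
      rw [e, map_mul, map_mul, hA, hA, hB] at hg
      have : A (-((d - 1) / b + (a - 1) / b)) = B b := by
        rw [neg_of_add r.Aadd, add_comm, r.Aadd]
        calc (A ((a - 1) / b) * A ((d - 1) / b))⁻¹
            = (A ((d - 1) / b))⁻¹ * (A ((d - 1) / b) * B b * A ((a - 1) / b)) * (A ((a - 1) / b))⁻¹ := by
              rw [hg, mul_one, _root_.mul_inv_rev]
          _ = B b := by group
      exact hbne (hBinj b (this.symm.trans (hdis _ _ this)))
    have had : a * d = 1 := by rw [hc0, hb0] at hdet; linear_combination hdet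
    have e1 : g * U 1 = U (a * a) * g := by
      apply Subtype.ext
      simp only [Matrix.SpecialLinearGroup.coe_mul, U_coe]
      ext i j; fin_cases i <;> fin_cases j <;> simp [Matrix.mul_apply, Fin.sum_univ_two, ← ha, ← hb, ← hc, ← hd, hb0, hc0]
      linear_combination -a * had
    have e2 := congrArg φ e1
    rw [map_mul, map_mul, hg, one_mul, mul_one, hB, hB] at e2
    have e3 : a * a - 1 = 0 := hBinj _ (by
      rw [sub_eq_add_neg, r.Badd, neg_of_add r.Badd, ← e2, mul_inv_cancel])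
    rcases mul_self_eq_one_iff.mp (sub_eq_zero.mp e3) with h1 | h1
    · left
      have hd1 : d = 1 := by rw [h1, one_mul] at had; exact had
      ext i j; fin_cases i <;> fin_cases j <;> simp [← ha, ← hb, ← hc, ← hd, hb0, hc0, h1, hd1]
    · right
      have hd1 : d = -1 := by rw [h1] at had; linear_combination -had
      ext i j; fin_cases i <;> fin_cases j <;> simp [← ha, ← hb, ← hc, ← hd, hb0, hc0, h1, hd1]
  by_cases hinj : Function.Injective φ
  · exact Or.inl ⟨(MulEquiv.ofBijective φ ⟨hinj, hsurj⟩).symm⟩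
  right
  obtain ⟨g₀, hg₀, hg₀1⟩ : ∃ g, φ g = 1 ∧ g ≠ 1 := by
    rw [injective_iff_map_eq_one] at hinj; push Not at hinj; exact hinj
  have hm : (g₀ : Matrix (Fin 2) (Fin 2) (ZMod p)) = -1 :=
    (key g₀ hg₀).resolve_left fun h1 => hg₀1 (Subtype.ext (h1.trans Matrix.SpecialLinearGroup.coe_one.symm))
  have hker : φ.ker = center (Matrix.SpecialLinearGroup (Fin 2) (ZMod p)) := by
    apply le_antisymm
    · intro g hg
      rw [mem_center_iff]
      intro x
      apply Subtype.ext
      rcases key g hg with h1 | h1 <;> simp [Matrix.SpecialLinearGroup.coe_mul, h1]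
    · intro g hg
      have hz : (g : Matrix (Fin 2) (Fin 2) (ZMod p)) = 1 ∨ (g : Matrix (Fin 2) (Fin 2) (ZMod p)) = -1 := by
        have e1 := congrArg Subtype.val (mem_center_iff.mp hg (U 1))
        have e2 := congrArg Subtype.val (mem_center_iff.mp hg (L 1))
        simp only [Matrix.SpecialLinearGroup.coe_mul, U_coe, L_coe] at e1 e2
        have a1 := congrFun (congrFun e1 0) 0
        have a2 := congrFun (congrFun e1 0) 1
        have a3 := congrFun (congrFun e2 0) 0
        simp [Matrix.mul_apply, Fin.sum_univ_two] at a1 a2 a3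
        have hdet := g.2
        rw [Matrix.det_fin_two, a1] at hdet
        have hsq : (g : Matrix (Fin 2) (Fin 2) (ZMod p)) 0 0 * (g : Matrix (Fin 2) (Fin 2) (ZMod p)) 0 0 = 1 := by
          linear_combination hdet - (g : Matrix (Fin 2) (Fin 2) (ZMod p)) 0 0 * a2
        have hd : (g : Matrix (Fin 2) (Fin 2) (ZMod p)) 1 1 = (g : Matrix (Fin 2) (Fin 2) (ZMod p)) 0 0 := by
          linear_combination a2
        rcases mul_self_eq_one_iff.mp hsq with h1 | h1
        · left; ext i j; fin_cases i <;> fin_cases j <;> simp [h1, hd, a1, a3]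
        · right; ext i j; fin_cases i <;> fin_cases j <;> simp [h1, hd, a1, a3]
      rcases hz with h1 | h1
      · rw [show g = 1 from Subtype.ext (h1.trans Matrix.SpecialLinearGroup.coe_one.symm)]; exact one_mem _
      · rw [show g = g₀ from Subtype.ext (h1.trans hm.symm)]; exact hg₀
  exact ⟨((QuotientGroup.quotientMulEquivOfEq hker.symm).trans
    (QuotientGroup.quotientKerEquivOfSurjective φ hsurj)).symm⟩

end CfsgLib.RootSub.SL2Relations
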