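import Cfsg.Agent.Lib.RootSub.RankOnePair

/-! Powers in a special rank one pair with abelian members. (helper6) -/

set_option autoImplicit false
set_option linter.unusedSectionVars false

namespace CfsgLib.RootSub.SpecialPowers

open Cfsg Subgroup

variable {X : Type*} [Group X] {A B : Subgroup X}
variable (hs : IsSpecialRankOnePair A B) (hab : HasAbelianUnipotents A B)
include hs hab

theorem comm_A {x y : X} (hx : x ∈ A) (hy : y ∈ A) : x * y = y * x :=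
  congrArg Subtype.val (hab.1.is_comm.comm ⟨x, hx⟩ ⟨y, hy⟩)

theorem comm_B {x y : X} (hx : x ∈ B) (hy : y ∈ B) : x * y = y * x :=
  congrArg Subtype.val (hab.2.is_comm.comm ⟨x, hx⟩ ⟨y, hy⟩)

theorem rel_unique {b b' : X} (hb : b ∈ B) (hb' : b' ∈ B) (e : conjBy A b = conjBy A b') : b = b' :=
  eq_of_conjBy_B (RankOnePair_symm hs.1) hb hb' e

theorem relation {a b : X} (ha : a ∈ A) (ha1 : a ≠ 1) (hb : b ∈ B) (hb1 : b ≠ 1)
    (e : conjBy A b⁻¹ = conjBy B a⁻¹) :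
    a * b⁻¹ * a = b⁻¹ * a * b⁻¹ ∧ (a * b⁻¹ * a) * a * (a * b⁻¹ * a)⁻¹ = b⁻¹ ∧
      (a * b⁻¹ * a) * b * (a * b⁻¹ * a)⁻¹ = a⁻¹ := by
  have r := hs.2 a ha ha1 b hb hb1 e
  have h1 : a * b⁻¹ * a = b⁻¹ * a * b⁻¹ :=
    calc a * b⁻¹ * a = a * (b⁻¹ * a * b) * b⁻¹ := by group
      _ = a * (a⁻¹ * b⁻¹ * a) * b⁻¹ := by rw [r]
      _ = b⁻¹ * a * b⁻¹ := by group
  refine ⟨h1, ?_, ?_⟩
  · calc (a * b⁻¹ * a) * a * (a * b⁻¹ * a)⁻¹ = (a * b⁻¹ * a) * b * a⁻¹ := by group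
      _ = (b⁻¹ * a * b⁻¹) * b * a⁻¹ := by rw [h1]
      _ = b⁻¹ := by group
  · rw [h1]
    calc (b⁻¹ * a * b⁻¹) * b * (b⁻¹ * a * b⁻¹)⁻¹ = (b⁻¹ * a * b) * a⁻¹ * b := by group
      _ = (a⁻¹ * b⁻¹ * a) * a⁻¹ * b := by rw [r]
      _ = a⁻¹ := by group

/-- `a b⁻¹ a` interchanges `A` and `B`. -/
theorem swap {a b : X} (ha : a ∈ A) (ha1 : a ≠ 1) (hb : b ∈ B) (hb1 : b ≠ 1)
    (e : conjBy A b⁻¹ = conjBy B a⁻¹) :
    conjBy A (a * b⁻¹ * a) = B ∧ conjBy B (a * b⁻¹ * a) = A := by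
  set n := a * b⁻¹ * a with hn
  have h1 : conjBy A n = B := by
    rw [hn, ← conjBy_conjBy, conjBy_of_mem ha, ← conjBy_conjBy, e, conjBy_self_inv]
  refine ⟨h1, ?_⟩
  have hnmem : n ∈ A ⊔ B := mul_mem (mul_mem (mem_sup_left ha) (inv_mem (mem_sup_right hb))) (mem_sup_left ha)
  rcases (unipotent_eq hs.1).mp (conj_mem_unipotent hs.1 (B_mem_unipotent hs.1) hnmem) with h | ⟨c, hc, h⟩
  · exact h
  · exfalso
    have hm : n * b * n⁻¹ ∈ conjBy B n := mem_conjBy.mpr (by simpa [mul_assoc] using hb)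
    rw [(relation hs hab ha ha1 hb hb1 e).2.2, h, mem_conjBy, mul_assoc, comm_A hs hab (inv_mem ha) hc,
      inv_mul_cancel_left] at hm
    have := Subgroup.mem_inf.mpr ⟨ha, le_normalizer (show a ∈ B by simpa using inv_mem hm)⟩
    rw [A_inf_normalizer hs.1, mem_bot] at this
    exact ha1 this

theorem rel_inv {a b : X} (ha : a ∈ A) (ha1 : a ≠ 1) (hb : b ∈ B) (hb1 : b ≠ 1)
    (e : conjBy A b⁻¹ = conjBy B a⁻¹) : conjBy A b = conjBy B a := by
  have h := (swap hs hab ha ha1 hb hb1 e).2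
  rw [(relation hs hab ha ha1 hb hb1 e).1, mul_assoc, ← conjBy_conjBy, ← conjBy_conjBy,
    conjBy_of_mem (inv_mem hb)] at h
  calc conjBy A b = conjBy (conjBy (conjBy B a) b⁻¹) b := by rw [h]
    _ = conjBy B a := conjBy_self_inv _ _

theorem powers (k : ℕ) : ∀ a b c : X, a ∈ A → a ≠ 1 → b ∈ B → b ≠ 1 →
    conjBy A b⁻¹ = conjBy B a⁻¹ → a ^ k ≠ 1 → c ∈ B → c ≠ 1 →
    conjBy A c⁻¹ = conjBy B (a ^ k)⁻¹ → c ^ k = b := by
  induction k with
  | zero => intro a b c _ _ _ _ _ h; exact absurd (pow_zero a) h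
  | succ k ih =>
    intro a b c ha ha1 hb hb1 e hu hc hc1 ec
    obtain ⟨-, hconj, -⟩ := relation hs hab ha ha1 hb hb1 e
    obtain ⟨hAn, hBn⟩ := swap hs hab ha ha1 hb hb1 e
    set n := a * b⁻¹ * a with hn
    have hpow : ∀ j : ℕ, (b⁻¹) ^ j = n * a ^ j * n⁻¹ := fun j => by rw [← hconj, conj_pow]
    by_cases hk : a ^ k = 1
    · have hbk : b ^ k = 1 := by
        have := hpow k
        rw [hk, mul_one, mul_inv_cancel, inv_pow, inv_eq_one] at this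
        exact this
      rw [pow_succ, hk, one_mul] at ec
      have : c = b := inv_injective (rel_unique hs hab (inv_mem hc) (inv_mem hb) (ec.trans e.symm))
      rw [this, pow_succ, hbk, one_mul]
    obtain ⟨c₀, hc₀, hc₀1, ec₀⟩ := hs.1.cond_left (a ^ k) (pow_mem ha k) hk
    have h0 : c₀ ^ k = b := ih a b c₀ ha ha1 hb hb1 e hk hc₀ hc₀1 ec₀
    set v := n⁻¹ * c₀⁻¹ * n with hv
    have hvA : v ∈ A := mem_conjBy.mp (show c₀⁻¹ ∈ conjBy A n from hAn.symm ▸ inv_mem hc₀)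
    have hvk : v ^ k = a := by
      have : v ^ k = n⁻¹ * (c₀⁻¹) ^ k * n := by
        have := conj_pow (i := k) (a := n⁻¹) (b := c₀⁻¹)
        simpa [hv] using this
      rw [this, inv_pow, h0, ← hconj]; group
    have hv1 : v ≠ 1 := fun h => ha1 (by rw [← hvk, h, one_pow])
    obtain ⟨d, hd, hd1, ed⟩ := hs.1.cond_left v hvA hv1
    have hd' : b ^ k = d := ih v d b hvA hv1 hd hd1 ed (by rwa [hvk]) hb hb1 (by rwa [hvk])
    set w := v ^ (k + 1) with hw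
    have hwk : w ^ k = a ^ (k + 1) := by rw [hw, ← pow_mul, mul_comm, pow_mul, hvk]
    have hw1 : w ≠ 1 := fun h => hu (by rw [← hwk, h, one_pow])
    obtain ⟨f, hf, hf1, ef⟩ := hs.1.cond_left w (pow_mem hvA _) hw1
    have hf' : c ^ k = f := ih w f c (pow_mem hvA _) hw1 hf hf1 ef (by rwa [hwk]) hc hc1 (by rwa [hwk])
    have e1 : conjBy (conjBy B (a ^ k)) n = conjBy B v⁻¹ := by
      rw [conjBy_conjBy, show n * a ^ k = (n * a ^ k * n⁻¹) * n by group, ← conjBy_conjBy, hBn, ← hpow k,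
        inv_pow, hd', ed]
    have e2 : conjBy (conjBy B (a ^ k)) n = conjBy (conjBy A (b⁻¹ * c)) a := by
      rw [← conjBy_conjBy A c, rel_inv hs hab (pow_mem ha (k + 1)) hu hc hc1 ec, conjBy_conjBy, conjBy_conjBy,
        conjBy_conjBy]
      congr 1
      rw [hn, pow_succ' a k]
      group
    have e3 : conjBy A (b⁻¹ * c) = conjBy A f⁻¹ := by
      apply conjBy_inj (g := a)
      rw [← e2, e1, ef, conjBy_conjBy]
      congr 1
      rw [hw, pow_succ, hvk, mul_inv_rev a v, ← mul_assoc a, comm_A hs hab ha (inv_mem hvA), mul_inv_cancel_right]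
    have e4 := rel_unique hs hab (mul_mem (inv_mem hb) hc) (inv_mem hf) e3
    have e5 : b⁻¹ * c * f = 1 := by rw [e4, inv_mul_cancel]
    rw [pow_succ', hf']
    exact (inv_mul_eq_one.mp (by rw [← mul_assoc]; exact e5)).symm

/-- An element with non-trivial `n`-th power is an `n`-th power. -/
theorem root {a : X} (ha : a ∈ A) {m : ℕ} (hm : a ^ m ≠ 1) : ∃ v ∈ A, v ^ m = a := by
  have ha1 : a ≠ 1 := fun h => hm (by rw [h, one_pow])
  obtain ⟨b, hb, hb1, e⟩ := hs.1.cond_left a ha ha1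
  obtain ⟨c, hc, hc1, ec⟩ := hs.1.cond_left (a ^ m) (pow_mem ha m) hm
  have h0 := powers hs hab m a b c ha ha1 hb hb1 e hm hc hc1 ec
  obtain ⟨-, hconj, -⟩ := relation hs hab ha ha1 hb hb1 e
  obtain ⟨hAn, -⟩ := swap hs hab ha ha1 hb hb1 e
  set n := a * b⁻¹ * a with hn
  refine ⟨n⁻¹ * c⁻¹ * n, mem_conjBy.mp (show c⁻¹ ∈ conjBy A n from hAn.symm ▸ inv_mem hc), ?_⟩
  have := conj_pow (i := m) (a := n⁻¹) (b := c⁻¹)
  rw [inv_inv] at this
  rw [this, inv_pow, h0, ← hconj]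
  group

theorem main : (∃ p : ℕ, p.Prime ∧ ∀ a ∈ A, a ^ p = 1) ∨
    ((∀ a ∈ A, a ≠ 1 → ¬ IsOfFinOrder a) ∧ ∀ a ∈ A, ∀ n : ℕ, 0 < n → ∃ c ∈ A, c ^ n = a) := by
  by_cases htf : ∀ a ∈ A, a ≠ 1 → ¬ IsOfFinOrder a
  · right
    refine ⟨htf, fun a ha n hn => ?_⟩
    rcases eq_or_ne a 1 with rfl | ha1
    · exact ⟨1, one_mem _, one_pow n⟩
    · exact root hs hab ha fun h => htf a ha ha1 (isOfFinOrder_iff_pow_eq_one.mpr ⟨n, hn, h⟩)
  left
  push Not at htf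
  obtain ⟨x, hx, hx1, hfin⟩ := htf
  have hord : orderOf x ≠ 1 := fun h => hx1 (orderOf_eq_one_iff.mp h)
  obtain ⟨p, hp, hdvd⟩ := Nat.exists_prime_and_dvd hord
  set a := x ^ (orderOf x / p) with hadef
  have hao : orderOf a = p := orderOf_pow_orderOf_div hfin.orderOf_pos.ne' hdvd
  have ha : a ∈ A := pow_mem hx _
  have ha1 : a ≠ 1 := fun h => hp.ne_one (by rw [← hao, h, orderOf_one])
  have hap : a ^ p = 1 := hao ▸ pow_orderOf_eq_one a
  refine ⟨p, hp, fun c hc => ?_⟩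
  by_contra hcp
  obtain ⟨v, hv, hvp⟩ := root hs hab hc hcp
  have hcap : (c * a) ^ p ≠ 1 := by
    rw [Commute.mul_pow (comm_A hs hab hc ha), hap, mul_one]; exact hcp
  obtain ⟨v', hv', hv'p⟩ := root hs hab (mul_mem hc ha) hcap
  set a' := v⁻¹ * v' with ha'def
  have ha'p : a' ^ p = a := by
    rw [Commute.mul_pow (comm_A hs hab (inv_mem hv) hv'), inv_pow, hvp, hv'p, inv_mul_cancel_left]
  have ha'1 : a' ≠ 1 := fun h => ha1 (by rw [← ha'p, h, one_pow])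
  obtain ⟨b', hb', hb'1, e'⟩ := hs.1.cond_left a' (mul_mem (inv_mem hv) hv') ha'1
  obtain ⟨b, hb, hb1, e⟩ := hs.1.cond_left a ha ha1
  have h0 := powers hs hab p a' b' b (mul_mem (inv_mem hv) hv') ha'1 hb' hb'1 e' (by rwa [ha'p]) hb hb1 (by rwa [ha'p])
  obtain ⟨-, hconj, -⟩ := relation hs hab ha ha1 hb hb1 e
  have hbp : b⁻¹ ^ p = 1 := by rw [← hconj, conj_pow, hap]; group
  exact hb'1 (by rw [← h0]; simpa using hbp)

end CfsgLib.RootSub.SpecialPowers
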