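import Cfsg.Agent.Lib.RootSub.Transvections
import Cfsg.Agent.S5016

/-! Pairs of transvection groups. (helper6) -/

set_option autoImplicit false
set_option linter.unusedSectionVars false

namespace CfsgLib.RootSub.Transvections

open Matrix Cfsg

variable {k : Type*} [Field k] {m : ℕ}

local notation "SL" => Matrix.SpecialLinearGroup (Fin (m + 3)) k

theorem conjBy_T (P : Pair k m) (g : SL) : conjBy (T P) g = T (move P g) := by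
  ext x
  rw [CfsgLib.RootSub.mem_conjBy, mem_T, mem_T]
  refine ⟨fun ⟨c, hc⟩ => ⟨c, ?_⟩, fun ⟨c, hc⟩ => ⟨c, ?_⟩⟩
  · rw [← conj_tv, ← hc]; group
  · rw [hc, ← conj_tv]; group

/-- A member of the class. -/
theorem mem_class {A : Subgroup SL} :
    (∃ g : SL, A = conjBy (Subgroup.closure {t : SL | ∃ c : k, (t : Matrix (Fin (m + 3)) (Fin (m + 3)) k) =
      Matrix.transvection 0 1 c}) g) ↔ ∃ P : Pair k m, A = T P := by
  rw [closure_std]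
  constructor
  · rintro ⟨g, rfl⟩; exact ⟨_, conjBy_T _ g⟩
  · rintro ⟨P, rfl⟩
    obtain ⟨g, hg⟩ := exists_conj_std P (1 : k)
    have hg' : ∀ c, tv P c = g * tv (E 0 1 h01) c * g⁻¹ := fun c => by simpa using hg c
    refine ⟨g, ?_⟩
    ext x
    rw [CfsgLib.RootSub.mem_conjBy, mem_T, mem_T]
    refine ⟨fun ⟨c, hc⟩ => ⟨c, by rw [hc, hg']; group⟩, fun ⟨c, hc⟩ => ⟨c, ?_⟩⟩
    rw [hg', ← hc]; group

theorem comm_T (P : Pair k m) : IsMulCommutative (T P) :=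
  ⟨⟨fun x y => Subtype.ext (by
    obtain ⟨c, hc⟩ := (mem_T P).mp x.2
    obtain ⟨d, hd⟩ := (mem_T P).mp y.2
    rw [Subgroup.coe_mul, Subgroup.coe_mul, hc, hd, tv_mul, tv_mul, add_comm c d])⟩⟩

theorem T_ne_bot (P : Pair k m) : T P ≠ ⊥ := fun h => by
  have : tv P 1 ∈ (⊥ : Subgroup SL) := h ▸ (mem_T P).mpr ⟨1, rfl⟩
  rw [Subgroup.mem_bot, ← tv_zero P] at this
  exact one_ne_zero (tv_inj P this)

theorem bracket_eq_bot {P Q : Pair k m} (h1 : P.φ ⬝ᵥ Q.v = 0) (h2 : Q.φ ⬝ᵥ P.v = 0) : ⁅T P, T Q⁆ = ⊥ := by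
  rw [eq_bot_iff, Subgroup.commutator_le]
  intro a ha b hb
  obtain ⟨c, rfl⟩ := (mem_T P).mp ha
  obtain ⟨d, rfl⟩ := (mem_T Q).mp hb
  rw [Subgroup.mem_bot, commutatorElement_eq_one_iff_commute]
  exact tv_comm P Q h1 h2 c d

theorem case_aux (S : Set (Subgroup SL)) {P Q R : Pair k m} {s : k} (hs : s ≠ 0) (hR : T R ∈ S)
    (hRP : ∀ c d, tv R c * tv P d = tv P d * tv R c) (hRQ : ∀ c d, tv R c * tv Q d = tv Q d * tv R c)
    (hcomm : ∀ c d, tv P c * tv Q d * (tv P c)⁻¹ * (tv Q d)⁻¹ = tv R (s * c * d)) :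
    RootCommutatorCase S (T P) (T Q) := by
  have e : ⁅T P, T Q⁆ = T R := by
    apply le_antisymm
    · rw [Subgroup.commutator_le]
      intro a ha b hb
      obtain ⟨c, rfl⟩ := (mem_T P).mp ha
      obtain ⟨d, rfl⟩ := (mem_T Q).mp hb
      exact (mem_T R).mpr ⟨_, hcomm c d⟩
    · intro x hx
      obtain ⟨c, rfl⟩ := (mem_T R).mp hx
      have h1 := Subgroup.commutator_mem_commutator ((mem_T P).mpr ⟨1, rfl⟩) ((mem_T Q).mpr ⟨c / s, rfl⟩)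
      rw [commutatorElement_def, hcomm] at h1
      rwa [mul_one, mul_div_cancel₀ _ hs] at h1
  rw [RootCommutatorCase, e]
  refine ⟨hR, ?_, ?_, ?_⟩
  · intro z hz x hx
    obtain ⟨c, rfl⟩ := (mem_T R).mp hz
    have hle : T P ⊔ T Q ≤ Subgroup.centralizer ({tv R c} : Set SL) := by
      refine sup_le ?_ ?_ <;> intro y hy <;> rw [Subgroup.mem_centralizer_singleton_iff]
      · obtain ⟨d, rfl⟩ := (mem_T P).mp hy; exact (hRP c d).symm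
      · obtain ⟨d, rfl⟩ := (mem_T Q).mp hy; exact (hRQ c d).symm
    exact (Subgroup.mem_centralizer_singleton_iff.mp (hle hx)).symm
  · intro a ha ha1
    obtain ⟨c, rfl⟩ := (mem_T P).mp ha
    have hc : c ≠ 0 := fun h => ha1 (h ▸ tv_zero P)
    refine le_antisymm ((Subgroup.closure_le _).mpr ?_) fun x hx => ?_
    · rintro _ ⟨b, hb, rfl⟩
      obtain ⟨d, rfl⟩ := (mem_T Q).mp hb
      exact (mem_T R).mpr ⟨_, hcomm c d⟩
    · obtain ⟨z, rfl⟩ := (mem_T R).mp hx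
      refine Subgroup.subset_closure ⟨tv Q (z / (s * c)), (mem_T Q).mpr ⟨_, rfl⟩, ?_⟩
      simp only [hcomm]
      rw [mul_div_cancel₀ _ (mul_ne_zero hs hc)]
  · intro b hb hb1
    obtain ⟨d, rfl⟩ := (mem_T Q).mp hb
    have hd : d ≠ 0 := fun h => hb1 (h ▸ tv_zero Q)
    refine le_antisymm ((Subgroup.closure_le _).mpr ?_) fun x hx => ?_
    · rintro _ ⟨a, ha, rfl⟩
      obtain ⟨c, rfl⟩ := (mem_T P).mp ha
      exact (mem_T R).mpr ⟨_, hcomm c d⟩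
    · obtain ⟨z, rfl⟩ := (mem_T R).mp hx
      refine Subgroup.subset_closure ⟨tv P (z / (s * d)), (mem_T P).mpr ⟨_, rfl⟩, ?_⟩
      simp only [hcomm]
      congr 1
      field_simp

theorem commutator_case (S : Set (Subgroup SL)) (hS : ∀ R : Pair k m, T R ∈ S) {P Q : Pair k m}
    (h1 : P.φ ⬝ᵥ Q.v ≠ 0) (h2 : Q.φ ⬝ᵥ P.v = 0) : RootCommutatorCase S (T P) (T Q) :=
  case_aux S h1 (hS _) (fun c d => tv_comm (comp P Q h2) P h2 P.orth c d)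
    (fun c d => tv_comm (comp P Q h2) Q Q.orth h2 c d) fun c d => tv_commutator P Q h2 c d

theorem commutator_case' (S : Set (Subgroup SL)) (hS : ∀ R : Pair k m, T R ∈ S) {P Q : Pair k m}
    (h1 : P.φ ⬝ᵥ Q.v = 0) (h2 : Q.φ ⬝ᵥ P.v ≠ 0) : RootCommutatorCase S (T P) (T Q) :=
  case_aux S (neg_ne_zero.mpr h2) (hS _) (fun c d => tv_comm (comp Q P h1) P P.orth h1 c d)
    (fun c d => tv_comm (comp Q P h1) Q h1 Q.orth c d) fun c d => by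
      have e : tv P c * tv Q d * (tv P c)⁻¹ * (tv Q d)⁻¹ = (tv Q d * tv P c * (tv Q d)⁻¹ * (tv P c)⁻¹)⁻¹ := by group
      rw [e, tv_commutator Q P h1, tv_inv]
      congr 1; ring

theorem conjBy_map {G H : Type*} [Group G] [Group H] (f : G →* H) (A : Subgroup G) (g : G) :
    conjBy (A.map f) (f g) = (conjBy A g).map f := by
  simp only [Cfsg.conjBy, Subgroup.map_map]
  congr 1
  ext x; simp

theorem rankOnePair_map {G H : Type*} [Group G] [Group H] {f : G →* H} (hf : Function.Injective f)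
    {A B : Subgroup G} (h : IsRankOnePair A B) : IsRankOnePair (A.map f) (B.map f) := by
  have cond : ∀ A B : Subgroup G, RankOneCondition A B → RankOneCondition (A.map f) (B.map f) := by
    rintro A B hAB _ ⟨a, ha, rfl⟩ hfa
    obtain ⟨b, hb, hb1, e⟩ := hAB a ha fun h => hfa (by rw [h, map_one])
    refine ⟨f b, ⟨b, hb, rfl⟩, fun h => hb1 (hf (h.trans (map_one f).symm)), ?_⟩
    rw [← map_inv, ← map_inv, conjBy_map, conjBy_map, e]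
  haveI := h.nilpotent_left
  haveI := h.nilpotent_right
  exact ⟨fun e => h.ne (Subgroup.map_injective hf e),
    Group.nilpotent_of_surjective (A.equivMapOfInjective f hf).toMonoidHom (MulEquiv.surjective _),
    Group.nilpotent_of_surjective (B.equivMapOfInjective f hf).toMonoidHom (MulEquiv.surjective _),
    cond A B h.cond_left, cond B A h.cond_right⟩

theorem maps {P Q : Pair k m} (h1 : P.φ ⬝ᵥ Q.v ≠ 0) (h2 : Q.φ ⬝ᵥ P.v ≠ 0) :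
    (upperUnipotentSL2 k).map (emb Q h1 h2) = T P ∧ (lowerUnipotentSL2 k).map (emb Q h1 h2) = T Q := by
  constructor <;> ext x <;> constructor
  · rintro ⟨g, hg, rfl⟩
    obtain ⟨u, rfl⟩ := Cfsg.Agent.S5016.mem_upper.mp hg
    exact (mem_T P).mpr ⟨_, emb_upper h1 h2 _ u rfl⟩
  · intro hx
    obtain ⟨c, rfl⟩ := (mem_T P).mp hx
    refine ⟨_, Cfsg.Agent.S5016.mem_upper.mpr ⟨c * (P.φ ⬝ᵥ Q.v), rfl⟩, ?_⟩
    rw [emb_upper h1 h2 _ _ rfl, mul_inv_cancel_right₀ h1]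
  · rintro ⟨g, hg, rfl⟩
    obtain ⟨u, rfl⟩ := Cfsg.Agent.S5016.mem_lower.mp hg
    exact (mem_T Q).mpr ⟨_, emb_lower h1 h2 _ u rfl⟩
  · intro hx
    obtain ⟨c, rfl⟩ := (mem_T Q).mp hx
    refine ⟨_, Cfsg.Agent.S5016.mem_lower.mpr ⟨c * (Q.φ ⬝ᵥ P.v), rfl⟩, ?_⟩
    rw [emb_lower h1 h2 _ _ rfl, mul_inv_cancel_right₀ h2]

theorem rank_one {P Q : Pair k m} (h1 : P.φ ⬝ᵥ Q.v ≠ 0) (h2 : Q.φ ⬝ᵥ P.v ≠ 0) : IsRankOnePair (T P) (T Q) := by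
  obtain ⟨eU, eL⟩ := maps h1 h2
  rw [← eU, ← eL]
  exact rankOnePair_map (emb_injective h1 h2) (RankOnePair_symm (Cfsg.Agent.S5016.result k).1.2)

theorem psl2_pair {P Q : Pair k m} (h1 : P.φ ⬝ᵥ Q.v ≠ 0) (h2 : Q.φ ⬝ᵥ P.v ≠ 0) : IsPSL2PairOver k (T P) (T Q) := by
  obtain ⟨eU, eL⟩ := maps h1 h2
  refine ⟨emb Q h1 h2, ?_, ?_, eU, eL⟩
  · rw [← eU, ← eL, ← Subgroup.map_sup, sup_comm, Cfsg.Agent.S5016.top_eq, MonoidHom.range_eq_map]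
  · rw [(MonoidHom.ker_eq_bot_iff _).mpr (emb_injective h1 h2)]; exact bot_le

theorem exists_not_orth {f g : Fin (m + 3) → k} (hf : f ≠ 0) (hg : g ≠ 0) : ∃ w, f ⬝ᵥ w ≠ 0 ∧ g ⬝ᵥ w ≠ 0 := by
  have ex : ∀ f : Fin (m + 3) → k, f ≠ 0 → ∃ w, f ⬝ᵥ w ≠ 0 := fun f hf => by
    obtain ⟨i, hi⟩ := Function.ne_iff.mp hf
    exact ⟨Pi.single i 1, by simpa using hi⟩
  obtain ⟨x, hx⟩ := ex f hf
  obtain ⟨y, hy⟩ := ex g hg
  by_cases h1 : g ⬝ᵥ x = 0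
  · by_cases h2 : f ⬝ᵥ y = 0
    · exact ⟨x + y, by simpa [dotProduct_add, h2] using hx, by simpa [dotProduct_add, h1] using hy⟩
    · exact ⟨y, h2, hy⟩
  · exact ⟨x, hx, h1⟩

theorem exists_common (P Q : Pair k m) :
    ∃ R : Pair k m, P.φ ⬝ᵥ R.v ≠ 0 ∧ R.φ ⬝ᵥ P.v ≠ 0 ∧ R.φ ⬝ᵥ Q.v ≠ 0 ∧ Q.φ ⬝ᵥ R.v ≠ 0 := by
  obtain ⟨w, hw1, hw2⟩ := exists_not_orth P.hφ Q.hφ
  have hdet : ∀ P' : Pair k m, P'.φ ⬝ᵥ w ≠ 0 → ∃ ψ, ψ ⬝ᵥ w = 0 ∧ ψ ⬝ᵥ P'.v ≠ 0 := fun P' hw => by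
    obtain ⟨i, hi⟩ := Function.ne_iff.mp P'.hv
    refine ⟨Pi.single i 1 - (w i / (P'.φ ⬝ᵥ w)) • P'.φ, ?_, ?_⟩
    · rw [sub_dotProduct, smul_dotProduct, single_dotProduct, one_mul, smul_eq_mul, div_mul_cancel₀ _ hw, sub_self]
    · rw [sub_dotProduct, smul_dotProduct, single_dotProduct, one_mul, P'.orth, smul_zero, sub_zero]
      exact hi
  obtain ⟨ψ₁, e1, n1⟩ := hdet P hw1
  obtain ⟨ψ₂, e2, n2⟩ := hdet Q hw2
  obtain ⟨ψ, e, n, n'⟩ : ∃ ψ, ψ ⬝ᵥ w = 0 ∧ ψ ⬝ᵥ P.v ≠ 0 ∧ ψ ⬝ᵥ Q.v ≠ 0 := by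
    by_cases h1 : ψ₁ ⬝ᵥ Q.v = 0
    · by_cases h2 : ψ₂ ⬝ᵥ P.v = 0
      · exact ⟨ψ₁ + ψ₂, by simp [add_dotProduct, e1, e2], by simpa [add_dotProduct, h2] using n1,
          by simpa [add_dotProduct, h1] using n2⟩
      · exact ⟨ψ₂, e2, h2, n2⟩
    · exact ⟨ψ₁, e1, n1, h1⟩
  exact ⟨⟨w, ψ, fun h => hw1 (by rw [h, dotProduct_zero]), fun h => n (by rw [h, zero_dotProduct]), e⟩, hw1, n, n', hw2⟩

end CfsgLib.RootSub.Transvections
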