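import Cfsg.Agent.Lib.Symplectic.Basic
import Cfsg.Agent.Lib.RootSub.TransvectionPairs

/-! Pairs of symplectic transvection groups. (helper6) -/

set_option autoImplicit false
set_option linter.unusedSectionVars false

open scoped Matrix

namespace CfsgLib.RootSub.SymplecticPairs

open Cfsg CfsgLib.Symplectic.Basic

variable {F : Type*} [Field F] {m : ℕ}

/-- The transvection group at a vector. -/
def X (p : V m F) : Subgroup (Sp m F) where
  carrier := Set.range (T p)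
  one_mem' := ⟨0, T_zero p⟩
  mul_mem' := by rintro _ _ ⟨c, rfl⟩ ⟨d, rfl⟩; exact ⟨_, T_add p c d⟩
  inv_mem' := by rintro _ ⟨c, rfl⟩; exact ⟨_, (T_neg p c).symm⟩

theorem mem_X {p : V m F} {g : Sp m F} : g ∈ X p ↔ ∃ c, g = T p c :=
  ⟨fun ⟨c, h⟩ => ⟨c, h.symm⟩, fun ⟨c, h⟩ => ⟨c, h.symm⟩⟩

theorem closure_eq (p : V m F) :
    Subgroup.closure {g : Sp m F | ∃ c : F, ∀ v : V m F,
      (g : Matrix (Fin m ⊕ Fin m) (Fin m ⊕ Fin m) F) *ᵥ v = v + (c * (v ⬝ᵥ (Matrix.J (Fin m) F *ᵥ p))) • p} = X p := by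
  apply le_antisymm
  · rw [Subgroup.closure_le]
    rintro g ⟨c, hc⟩
    exact mem_X.mpr ⟨c, ext_mulVec fun v => by rw [T_apply, hc, B_eq, Cfsg.sympForm]⟩
  · rintro g hg
    obtain ⟨c, rfl⟩ := mem_X.mp hg
    exact Subgroup.subset_closure ⟨c, fun v => by rw [T_apply, B_eq, Cfsg.sympForm]⟩

theorem X_smul (p : V m F) {a : F} (ha : a ≠ 0) : X (a • p) = X p := by
  ext g
  rw [mem_X, mem_X]
  refine ⟨fun ⟨c, hc⟩ => ⟨a ^ 2 * c, by rw [hc, T_smul]⟩, fun ⟨c, hc⟩ => ⟨c / a ^ 2, ?_⟩⟩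
  rw [hc, T_smul, mul_div_cancel₀ _ (pow_ne_zero 2 ha)]

theorem conjBy_X (A : Sp m F) (p : V m F) : conjBy (X p) A = X (A.1 *ᵥ p) := by
  ext x
  rw [CfsgLib.RootSub.mem_conjBy, mem_X, mem_X]
  refine ⟨fun ⟨c, hc⟩ => ⟨c, ?_⟩, fun ⟨c, hc⟩ => ⟨c, ?_⟩⟩
  · rw [← conj_T, ← hc]; group
  · rw [hc, ← conj_T]; group

theorem comm_X (p : V m F) : IsMulCommutative (X p) :=
  ⟨⟨fun x y => Subtype.ext (by
    obtain ⟨c, hc⟩ := mem_X.mp x.2
    obtain ⟨d, hd⟩ := mem_X.mp y.2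
    rw [Subgroup.coe_mul, Subgroup.coe_mul, hc, hd, ← T_add, ← T_add, add_comm c d])⟩⟩

theorem X_ne_bot {p : V m F} (hp : p ≠ 0) : X p ≠ ⊥ := fun h => by
  have h1 : T p 1 ∈ (⊥ : Subgroup (Sp m F)) := h ▸ mem_X.mpr ⟨1, rfl⟩
  rw [Subgroup.mem_bot] at h1
  obtain ⟨v, hv⟩ := exists_B_eq_one hp
  have h2 := congrArg (fun g : Sp m F => g.1 *ᵥ v) h1
  simp only [T_apply, Submonoid.coe_one, Matrix.one_mulVec, one_mul, add_eq_left] at h2
  rw [B_swap, hv, neg_smul, one_smul, neg_eq_zero] at h2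
  exact hp h2

theorem bracket_eq_bot {p q : V m F} (h : B p q = 0) : ⁅X p, X q⁆ = ⊥ := by
  rw [eq_bot_iff, Subgroup.commutator_le]
  intro a ha b hb
  obtain ⟨c, rfl⟩ := mem_X.mp ha
  obtain ⟨d, rfl⟩ := mem_X.mp hb
  rw [Subgroup.mem_bot, commutatorElement_def, conj_T, T_fix (by rw [B_swap, h, neg_zero]), mul_inv_cancel]

/-- The underlying matrix of the embedding of `SL 2` on a hyperbolic pair. -/
noncomputable def embMat (p q : V m F) (M : Matrix (Fin 2) (Fin 2) F) : Matrix (Fin m ⊕ Fin m) (Fin m ⊕ Fin m) F :=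
  1 + Matrix.vecMulVec p ((M 0 0 - 1) • (Matrix.J (Fin m) F *ᵥ q) - M 0 1 • (Matrix.J (Fin m) F *ᵥ p)) +
    Matrix.vecMulVec q (M 1 0 • (Matrix.J (Fin m) F *ᵥ q) - (M 1 1 - 1) • (Matrix.J (Fin m) F *ᵥ p))

theorem embMat_apply (p q : V m F) (M : Matrix (Fin 2) (Fin 2) F) (x : V m F) :
    embMat p q M *ᵥ x = x + ((M 0 0 - 1) * B x q - M 0 1 * B x p) • p + (M 1 0 * B x q - (M 1 1 - 1) * B x p) • q := by
  rw [embMat, Matrix.add_mulVec, Matrix.add_mulVec, Matrix.one_mulVec, Matrix.vecMulVec_mulVec, Matrix.vecMulVec_mulVec]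
  simp only [B_eq, Cfsg.sympForm, sub_dotProduct, smul_dotProduct, smul_eq_mul, dotProduct_comm x]
  simp only [← MulOpposite.op_sub, op_smul_eq_smul]

theorem embMat_mem {p q : V m F} (h : B p q = 1) (M : Matrix.SpecialLinearGroup (Fin 2) F) :
    embMat p q (M : Matrix (Fin 2) (Fin 2) F) ∈ Matrix.symplecticGroup (Fin m) F := by
  rw [mem_iff]
  intro u v
  have hd := M.2
  rw [Matrix.det_fin_two] at hd
  have hqp : B q p = -1 := by rw [B_swap, h]
  simp only [embMat_apply, map_add, map_smul, LinearMap.add_apply, LinearMap.smul_apply, smul_eq_mul, B_self, h, hqp]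
  rw [B_swap p v, B_swap q v]
  linear_combination (B u q * B v p * -1 + B u p * B v q) * hd

/-- The embedding of `SL 2` on a hyperbolic pair. -/
noncomputable def emb {p q : V m F} (h : B p q = 1) : Matrix.SpecialLinearGroup (Fin 2) F →* Sp m F :=
  MonoidHom.mk' (fun M => ⟨embMat p q (M : Matrix (Fin 2) (Fin 2) F), embMat_mem h M⟩) fun M N => by
    refine ext_mulVec fun x => ?_
    rw [mulVec_mul]
    simp only [embMat_apply, Matrix.SpecialLinearGroup.coe_mul, Matrix.mul_apply, Fin.sum_univ_two, map_add, map_smul,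
      LinearMap.add_apply, LinearMap.smul_apply, smul_eq_mul, B_self, h, show B q p = (-1 : F) by rw [B_swap, h]]
    module

theorem emb_upper {p q : V m F} (h : B p q = 1) (M : Matrix.SpecialLinearGroup (Fin 2) F) (c : F)
    (hM : (M : Matrix (Fin 2) (Fin 2) F) = !![1, c; 0, 1]) : emb h M = T p (-c) := by
  refine ext_mulVec fun x => ?_
  show embMat p q _ *ᵥ x = _
  rw [embMat_apply, T_apply, hM]; simp [neg_smul, sub_eq_add_neg]

theorem emb_lower {p q : V m F} (h : B p q = 1) (M : Matrix.SpecialLinearGroup (Fin 2) F) (c : F)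
    (hM : (M : Matrix (Fin 2) (Fin 2) F) = !![1, 0; c, 1]) : emb h M = T q c := by
  refine ext_mulVec fun x => ?_
  show embMat p q _ *ᵥ x = _
  rw [embMat_apply, T_apply, hM]; simp

theorem emb_injective {p q : V m F} (h : B p q = 1) : Function.Injective (emb h) := by
  have hqp : B q p = (-1 : F) := by rw [B_swap, h]
  have key : ∀ (M : Matrix.SpecialLinearGroup (Fin 2) F),
      B ((emb h M).1 *ᵥ p) q = (M : Matrix (Fin 2) (Fin 2) F) 0 0 ∧
      B ((emb h M).1 *ᵥ p) p = -(M : Matrix (Fin 2) (Fin 2) F) 1 0 ∧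
      B ((emb h M).1 *ᵥ q) q = (M : Matrix (Fin 2) (Fin 2) F) 0 1 ∧
      B ((emb h M).1 *ᵥ q) p = -(M : Matrix (Fin 2) (Fin 2) F) 1 1 := by
    intro M
    have e : ∀ x, (emb h M).1 *ᵥ x = embMat p q (M : Matrix (Fin 2) (Fin 2) F) *ᵥ x := fun x => rfl
    refine ⟨?_, ?_, ?_, ?_⟩ <;>
      simp only [e, embMat_apply, map_add, map_smul, LinearMap.add_apply, LinearMap.smul_apply, smul_eq_mul,
        B_self, h, hqp] <;> ring
  intro M N hMN
  obtain ⟨a, b, c, d⟩ := key M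
  obtain ⟨a', b', c', d'⟩ := key N
  rw [hMN] at a b c d
  apply Subtype.ext
  ext i j; fin_cases i <;> fin_cases j
  · exact a.symm.trans a'
  · exact c.symm.trans c'
  · exact neg_injective (b.symm.trans b')
  · exact neg_injective (d.symm.trans d')

theorem pair {p q : V m F} (h : B p q ≠ 0) : IsRankOnePair (X p) (X q) ∧ IsPSL2PairOver F (X p) (X q) := by
  have h' : B p ((B p q)⁻¹ • q) = 1 := by rw [map_smul, smul_eq_mul, inv_mul_cancel₀ h]
  rw [← X_smul q (inv_ne_zero h)]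
  set q' := (B p q)⁻¹ • q with hq'
  have eU : (upperUnipotentSL2 F).map (emb h') = X p := by
    ext x; constructor
    · rintro ⟨g, hg, rfl⟩
      obtain ⟨u, rfl⟩ := Cfsg.Agent.S5016.mem_upper.mp hg
      exact mem_X.mpr ⟨_, emb_upper h' _ u rfl⟩
    · intro hx
      obtain ⟨c, rfl⟩ := mem_X.mp hx
      exact ⟨_, Cfsg.Agent.S5016.mem_upper.mpr ⟨-c, rfl⟩, by rw [emb_upper h' _ _ rfl, neg_neg]⟩
  have eL : (lowerUnipotentSL2 F).map (emb h') = X q' := by
    ext x; constructor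
    · rintro ⟨g, hg, rfl⟩
      obtain ⟨u, rfl⟩ := Cfsg.Agent.S5016.mem_lower.mp hg
      exact mem_X.mpr ⟨_, emb_lower h' _ u rfl⟩
    · intro hx
      obtain ⟨c, rfl⟩ := mem_X.mp hx
      exact ⟨_, Cfsg.Agent.S5016.mem_lower.mpr ⟨c, rfl⟩, emb_lower h' _ _ rfl⟩
  constructor
  · rw [← eU, ← eL]
    exact Transvections.rankOnePair_map (emb_injective h') (RankOnePair_symm (Cfsg.Agent.S5016.result F).1.2)
  · refine ⟨emb h', ?_, ?_, eU, eL⟩
    · rw [← eU, ← eL, ← Subgroup.map_sup, sup_comm, Cfsg.Agent.S5016.top_eq, MonoidHom.range_eq_map]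
    · rw [(MonoidHom.ker_eq_bot_iff _).mpr (emb_injective h')]; exact bot_le

end CfsgLib.RootSub.SymplecticPairs
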