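import Cfsg.Agent.Lib.Centralizers.Transvection
import Cfsg.Agent.Lib.Linear.Generation

/-! Transvections of `SL n` given by a vector and a functional. (helper6) -/

set_option autoImplicit false
set_option linter.unusedSectionVars false

namespace CfsgLib.RootSub.Transvections

open Matrix

variable {k : Type*} [Field k] {m : ℕ}

local notation "V" => Fin (m + 3) → k
local notation "SL" => Matrix.SpecialLinearGroup (Fin (m + 3)) k
local notation "Mn" => Matrix (Fin (m + 3)) (Fin (m + 3)) k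

/-- A pair of a nonzero vector and a nonzero functional vanishing at it. -/
structure Pair (k : Type*) [Field k] (m : ℕ) where
  v : Fin (m + 3) → k
  φ : Fin (m + 3) → k
  hv : v ≠ 0
  hφ : φ ≠ 0
  orth : φ ⬝ᵥ v = 0

variable (P : Pair k m)

/-- The transvection with parameter `c`. -/
def tv (c : k) : SL := ⟨1 + c • vecMulVec P.v P.φ, by
  rw [← Matrix.smul_vecMulVec, vecMulVec_eq Unit, det_one_add_replicateCol_mul_replicateRow,
    dotProduct_smul, P.orth, smul_zero, add_zero]⟩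

theorem tv_coe (c : k) : (tv P c : Mn) = 1 + c • vecMulVec P.v P.φ := rfl

theorem vv_self : vecMulVec P.v P.φ * vecMulVec P.v P.φ = 0 := by
  rw [vecMulVec_mul_vecMulVec, P.orth, zero_smul, vecMulVec_zero]

theorem tv_mul (c d : k) : tv P c * tv P d = tv P (c + d) := by
  apply Subtype.ext
  show (tv P c : Mn) * tv P d = _
  simp only [tv_coe, add_mul, mul_add, one_mul, mul_one, smul_mul_smul_comm, vv_self, smul_zero, add_zero]
  show _ = 1 + (c + d) • vecMulVec P.v P.φ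
  rw [add_smul]; abel

theorem tv_zero : tv P 0 = 1 := Subtype.ext (by simp [tv_coe])

theorem tv_inv (c : k) : (tv P c)⁻¹ = tv P (-c) :=
  inv_eq_of_mul_eq_one_right (by rw [tv_mul, add_neg_cancel, tv_zero])

theorem vv_ne : vecMulVec P.v P.φ ≠ 0 := by
  intro h
  obtain ⟨i, hi⟩ := Function.ne_iff.mp P.hv
  obtain ⟨j, hj⟩ := Function.ne_iff.mp P.hφ
  have := congrFun (congrFun h i) j
  simp [vecMulVec_apply, mul_eq_zero] at this
  rcases this with h1 | h1
  exacts [hi h1, hj h1]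

theorem tv_inj {c d : k} (h : tv P c = tv P d) : c = d := by
  have := congrArg Subtype.val h
  rw [tv_coe, tv_coe, add_right_inj] at this
  by_contra hne
  exact vv_ne P ((smul_eq_zero.mp (show (c - d) • vecMulVec P.v P.φ = 0 by rw [sub_smul, this, sub_self])).resolve_left
    (sub_ne_zero.mpr hne))

/-- The root subgroup attached to a pair. -/
def T : Subgroup SL where
  carrier := Set.range (tv P)
  one_mem' := ⟨0, tv_zero P⟩
  mul_mem' := by rintro _ _ ⟨c, rfl⟩ ⟨d, rfl⟩; exact ⟨_, (tv_mul P c d).symm⟩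
  inv_mem' := by rintro _ ⟨c, rfl⟩; exact ⟨_, (tv_inv P c).symm⟩

theorem mem_T {g : SL} : g ∈ T P ↔ ∃ c, g = tv P c :=
  ⟨fun ⟨c, h⟩ => ⟨c, h.symm⟩, fun ⟨c, h⟩ => ⟨c, h.symm⟩⟩

/-- The standard pair at two coordinates. -/
noncomputable def E (i j : Fin (m + 3)) (hij : i ≠ j) : Pair k m where
  v := Pi.single i 1
  φ := Pi.single j 1
  hv := by simp
  hφ := by simp
  orth := by simp [hij.symm]

theorem tv_E (i j : Fin (m + 3)) (hij : i ≠ j) (c : k) :
    (tv (E i j hij) c : Mn) = Matrix.transvection i j c := by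
  ext a b
  simp [tv_coe, E, Matrix.transvection, vecMulVec_apply, Matrix.single, Pi.single_apply]
  aesop

theorem tv_E' (i j : Fin (m + 3)) (hij : i ≠ j) (c : k) :
    tv (E i j hij) c = Matrix.SpecialLinearGroup.transvection hij c :=
  Subtype.ext ((tv_E i j hij c).trans (by rfl))

theorem h01 : (0 : Fin (m + 3)) ≠ 1 := by simp

theorem closure_std : Subgroup.closure {t : SL | ∃ c : k, (t : Mn) = Matrix.transvection 0 1 c} = T (E (k := k) 0 1 h01) := by
  apply le_antisymm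
  · rw [Subgroup.closure_le]
    rintro t ⟨c, hc⟩
    exact ⟨c, Subtype.ext ((tv_E _ _ h01 c).trans hc.symm)⟩
  · rintro _ ⟨c, rfl⟩
    exact Subgroup.subset_closure ⟨c, tv_E _ _ h01 c⟩

/-- The image of a pair under an automorphism. -/
noncomputable def move (g : SL) : Pair k m where
  v := (g : Mn) *ᵥ P.v
  φ := P.φ ᵥ* ((g⁻¹ : SL) : Mn)
  hv := fun h => P.hv (by
    have := congrArg (fun w => ((g⁻¹ : SL) : Mn) *ᵥ w) h
    rwa [Matrix.mulVec_mulVec, ← Matrix.SpecialLinearGroup.coe_mul, inv_mul_cancel,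
      Matrix.SpecialLinearGroup.coe_one, Matrix.one_mulVec, Matrix.mulVec_zero] at this)
  hφ := fun h => P.hφ (by
    have := congrArg (fun w => w ᵥ* (g : Mn)) h
    rwa [Matrix.vecMul_vecMul, ← Matrix.SpecialLinearGroup.coe_mul, inv_mul_cancel,
      Matrix.SpecialLinearGroup.coe_one, Matrix.vecMul_one, Matrix.zero_vecMul] at this)
  orth := by
    rw [Matrix.dotProduct_mulVec, Matrix.vecMul_vecMul, ← Matrix.SpecialLinearGroup.coe_mul, inv_mul_cancel,
      Matrix.SpecialLinearGroup.coe_one, Matrix.vecMul_one, P.orth]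

theorem conj_tv (g : SL) (c : k) : g * tv P c * g⁻¹ = tv (move P g) c := by
  apply Subtype.ext
  show (g : Mn) * (tv P c : Mn) * ((g⁻¹ : SL) : Mn) = (tv (move P g) c : Mn)
  rw [tv_coe, tv_coe, mul_add, mul_one, add_mul, Matrix.mul_smul, Matrix.smul_mul, Matrix.mul_vecMulVec,
    Matrix.vecMulVec_mul, ← Matrix.SpecialLinearGroup.coe_mul, mul_inv_cancel, Matrix.SpecialLinearGroup.coe_one]
  rfl

/-- Every pair is a conjugate of the standard one. -/
theorem exists_conj_std (c₀ : k) : ∃ g : SL, ∀ c, tv P c = g * tv (E 0 1 h01) (c₀ * c) * g⁻¹ ∨ c₀ = 0 := by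
  rcases eq_or_ne c₀ 0 with h0 | h0
  · exact ⟨1, fun c => Or.inr h0⟩
  set t : Mn := 1 + c₀⁻¹ • vecMulVec P.v P.φ with ht
  have hsq : (t - 1) * (t - 1) = 0 := by
    rw [ht, add_sub_cancel_left, smul_mul_smul_comm, vv_self, smul_zero]
  have hr : (t - 1).rank = 1 := by
    rw [ht, add_sub_cancel_left, ← Matrix.smul_vecMulVec]
    refine le_antisymm ?_ ?_
    · exact Matrix.rank_vecMulVec_le _ _
    · rw [Nat.one_le_iff_ne_zero]
      intro h0'
      have h : Matrix.vecMulVec (c₀⁻¹ • P.v) P.φ = 0 := by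
        rw [Matrix.rank, Submodule.finrank_eq_zero, LinearMap.range_eq_bot] at h0'
        exact Matrix.toLin'.injective (by rw [map_zero]; exact h0')
      rw [Matrix.smul_vecMulVec] at h
      exact vv_ne P ((smul_eq_zero.mp h).resolve_left (inv_ne_zero h0))
  obtain ⟨g, hg, hgt⟩ : ∃ g : Mn, g.det ≠ 0 ∧ (t - 1) * g = g * Matrix.single 0 1 1 :=
    CfsgLib.TransvCent.exists_conj (m := m + 1) t hr hsq
  set D : Mn := Matrix.diagonal (Function.update (fun _ => (1 : k)) (⟨2, by omega⟩ : Fin (m + 3)) g.det⁻¹) with hD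
  have hdet : (g * D).det = 1 := by
    rw [det_mul, hD, det_diagonal, Finset.prod_update_of_mem (Finset.mem_univ _)]
    simp [hg]
  have hcomm : D * Matrix.single 0 1 (1 : k) = Matrix.single 0 1 (1 : k) * D := by
    ext a b
    rw [hD, Matrix.diagonal_mul, Matrix.mul_diagonal]
    by_cases h : (0 : Fin (m + 3)) = a ∧ (1 : Fin (m + 3)) = b
    · obtain ⟨rfl, rfl⟩ := h
      have n0 : (0 : Fin (m + 3)) ≠ ⟨2, by omega⟩ := Fin.ne_of_val_ne (by simp)
      have n1 : (1 : Fin (m + 3)) ≠ ⟨2, by omega⟩ := Fin.ne_of_val_ne (by simp)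
      rw [Function.update_of_ne n0, Function.update_of_ne n1]
      simp
    · rw [Matrix.single_apply_of_ne _ _ _ _ _ h]; simp
  refine ⟨⟨g * D, hdet⟩, fun c => Or.inl ?_⟩
  refine (eq_mul_inv_iff_mul_eq (G := SL)).mpr ?_
  apply Subtype.ext
  show (tv P c : Mn) * (g * D) = g * D * ((tv (E (k := k) (m := m) 0 1 h01) (c₀ * c) : SL) : Mn)
  rw [tv_E, tv_coe, Matrix.transvection, add_mul, mul_add, one_mul, mul_one]
  congr 1
  have e : c • vecMulVec P.v P.φ = (c₀ * c) • (t - 1) := by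
    rw [ht, add_sub_cancel_left, smul_smul, mul_right_comm, mul_inv_cancel₀ h0, one_mul]
  have e1 : Matrix.single 0 1 (c₀ * c) = (c₀ * c) • Matrix.single (0 : Fin (m + 3)) 1 (1 : k) := by
    rw [Matrix.smul_single, smul_eq_mul, mul_one]
  rw [e]
  have e2 : g * D * Matrix.single 0 1 (c₀ * c) = g * D * ((c₀ * c) • Matrix.single (0 : Fin (m + 3)) 1 (1 : k)) := by
    simp only [Matrix.smul_single, smul_eq_mul, mul_one]
  refine Eq.trans ?_ e2.symm
  rw [Matrix.smul_mul, ← mul_assoc, hgt, mul_assoc, ← hcomm, Matrix.mul_smul, mul_assoc]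

/-- Products of two transvections. -/
theorem tv_comm (Q : Pair k m) (h1 : P.φ ⬝ᵥ Q.v = 0) (h2 : Q.φ ⬝ᵥ P.v = 0) (c d : k) :
    tv P c * tv Q d = tv Q d * tv P c := by
  apply Subtype.ext
  show (tv P c : Mn) * tv Q d = (tv Q d : Mn) * tv P c
  rw [tv_coe, tv_coe]
  simp only [add_mul, mul_add, one_mul, mul_one, smul_mul_smul_comm, vecMulVec_mul_vecMulVec, h1, h2,
    zero_smul, vecMulVec_zero, smul_zero]
  abel

/-- The composite pair. -/
def comp (Q : Pair k m) (h2 : Q.φ ⬝ᵥ P.v = 0) : Pair k m where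
  v := P.v
  φ := Q.φ
  hv := P.hv
  hφ := Q.hφ
  orth := h2

theorem tv_commutator (Q : Pair k m) (h2 : Q.φ ⬝ᵥ P.v = 0) (c d : k) :
    tv P c * tv Q d * (tv P c)⁻¹ * (tv Q d)⁻¹ = tv (comp P Q h2) ((P.φ ⬝ᵥ Q.v) * c * d) := by
  rw [mul_inv_eq_iff_eq_mul, mul_inv_eq_iff_eq_mul]
  apply Subtype.ext
  show (tv P c : Mn) * tv Q d = (tv (comp P Q h2) _ : Mn) * tv Q d * tv P c
  rw [tv_coe, tv_coe, tv_coe]
  simp only [comp, add_mul, mul_add, one_mul, mul_one, smul_mul_smul_comm, vecMulVec_mul_vecMulVec,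
    h2, Q.orth, zero_smul, vecMulVec_zero, smul_zero, add_zero, vecMulVec_smul]
  module

/-- The frame of two pairs in general position: the two columns. -/
def colM (Q : Pair k m) : Matrix (Fin (m + 3)) (Fin 2) k := Matrix.of fun i j => if j = 0 then P.v i else Q.v i

/-- The frame of two pairs in general position: the two rows. -/
noncomputable def rowM (Q : Pair k m) : Matrix (Fin 2) (Fin (m + 3)) k :=
  Matrix.of fun j i => if j = 0 then (Q.φ ⬝ᵥ P.v)⁻¹ * Q.φ i else (P.φ ⬝ᵥ Q.v)⁻¹ * P.φ i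

variable {P}

theorem row_col {Q : Pair k m} (h1 : P.φ ⬝ᵥ Q.v ≠ 0) (h2 : Q.φ ⬝ᵥ P.v ≠ 0) : rowM P Q * colM P Q = 1 := by
  have e : ∀ (c : k) (f w : Fin (m + 3) → k), ∑ x, c * f x * w x = c * (f ⬝ᵥ w) := fun c f w => by
    simp [dotProduct, Finset.mul_sum, mul_assoc]
  ext a b
  fin_cases a <;> fin_cases b <;>
    simp [Matrix.mul_apply, rowM, colM, e, P.orth, Q.orth, h1, h2]

/-- The embedding of `SL 2` attached to two pairs in general position. -/
noncomputable def emb (Q : Pair k m) (h1 : P.φ ⬝ᵥ Q.v ≠ 0) (h2 : Q.φ ⬝ᵥ P.v ≠ 0) :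
    Matrix.SpecialLinearGroup (Fin 2) k →* SL :=
  MonoidHom.mk' (fun M => ⟨1 + colM P Q * ((M : Matrix (Fin 2) (Fin 2) k) - 1) * rowM P Q, by
      rw [Matrix.mul_assoc, Matrix.det_one_add_mul_comm, Matrix.mul_assoc,
        row_col h1 h2, Matrix.mul_one, add_sub_cancel, M.2]⟩) fun M N => Subtype.ext (by
    show 1 + colM P Q * (((M * N : Matrix.SpecialLinearGroup (Fin 2) k) : Matrix (Fin 2) (Fin 2) k) - 1) * rowM P Q =
      (1 + colM P Q * ((M : Matrix (Fin 2) (Fin 2) k) - 1) * rowM P Q) *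
        (1 + colM P Q * ((N : Matrix (Fin 2) (Fin 2) k) - 1) * rowM P Q)
    have e : colM P Q * ((M : Matrix (Fin 2) (Fin 2) k) - 1) * rowM P Q *
        (colM P Q * ((N : Matrix (Fin 2) (Fin 2) k) - 1) * rowM P Q) =
        colM P Q * (((M : Matrix (Fin 2) (Fin 2) k) - 1) * ((N : Matrix (Fin 2) (Fin 2) k) - 1)) * rowM P Q := by
      simp only [Matrix.mul_assoc]
      rw [← Matrix.mul_assoc (rowM P Q) (colM P Q), row_col h1 h2, Matrix.one_mul]
    simp only [add_mul (1 : Mn), mul_add, one_mul, mul_one, e]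
    rw [Matrix.SpecialLinearGroup.coe_mul,
      show (M : Matrix (Fin 2) (Fin 2) k) * (N : Matrix (Fin 2) (Fin 2) k) - 1 =
        ((M : Matrix (Fin 2) (Fin 2) k) - 1) + ((N : Matrix (Fin 2) (Fin 2) k) - 1) +
          ((M : Matrix (Fin 2) (Fin 2) k) - 1) * ((N : Matrix (Fin 2) (Fin 2) k) - 1) by
        simp only [mul_sub, sub_mul, mul_one, one_mul]; abel,
      Matrix.mul_add, Matrix.mul_add, Matrix.add_mul, Matrix.add_mul]
    abel)

theorem emb_coe {Q : Pair k m} (h1 : P.φ ⬝ᵥ Q.v ≠ 0) (h2 : Q.φ ⬝ᵥ P.v ≠ 0) (M : Matrix.SpecialLinearGroup (Fin 2) k) :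
    (emb Q h1 h2 M : Mn) = 1 + colM P Q * ((M : Matrix (Fin 2) (Fin 2) k) - 1) * rowM P Q := rfl

theorem emb_injective {Q : Pair k m} (h1 : P.φ ⬝ᵥ Q.v ≠ 0) (h2 : Q.φ ⬝ᵥ P.v ≠ 0) :
    Function.Injective (emb Q h1 h2) := by
  intro M N h
  have h' := congrArg Subtype.val h
  rw [emb_coe, emb_coe, add_right_inj] at h'
  have := congrArg (fun X => rowM P Q * X * colM P Q) h'
  simp only [Matrix.mul_assoc, row_col h1 h2, Matrix.mul_one] at this
  simp only [← Matrix.mul_assoc, row_col h1 h2, Matrix.one_mul, sub_left_inj] at this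
  exact Subtype.ext this

theorem emb_upper {Q : Pair k m} (h1 : P.φ ⬝ᵥ Q.v ≠ 0) (h2 : Q.φ ⬝ᵥ P.v ≠ 0) (M : Matrix.SpecialLinearGroup (Fin 2) k)
    (c : k) (hM : (M : Matrix (Fin 2) (Fin 2) k) = !![1, c; 0, 1]) :
    emb Q h1 h2 M = tv P (c * (P.φ ⬝ᵥ Q.v)⁻¹) := by
  apply Subtype.ext
  rw [emb_coe, tv_coe, hM]
  congr 1
  ext a b
  simp [Matrix.mul_apply, Fin.sum_univ_two, colM, rowM, vecMulVec_apply]
  ring

theorem emb_lower {Q : Pair k m} (h1 : P.φ ⬝ᵥ Q.v ≠ 0) (h2 : Q.φ ⬝ᵥ P.v ≠ 0) (M : Matrix.SpecialLinearGroup (Fin 2) k)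
    (c : k) (hM : (M : Matrix (Fin 2) (Fin 2) k) = !![1, 0; c, 1]) :
    emb Q h1 h2 M = tv Q (c * (Q.φ ⬝ᵥ P.v)⁻¹) := by
  apply Subtype.ext
  rw [emb_coe, tv_coe, hM]
  congr 1
  ext a b
  simp [Matrix.mul_apply, Fin.sum_univ_two, colM, rowM, vecMulVec_apply]
  ring

theorem top_eq : ∀ H : Subgroup SL, (∀ (i j : Fin (m + 3)) (hij : i ≠ j) (c : k), tv (E i j hij) c ∈ H) → H = ⊤ :=
  fun H h => CfsgLib.Linear.Generation.eq_top_of_transvection_mem H fun i j hij c => tv_E' i j hij c ▸ h i j hij c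

end CfsgLib.RootSub.Transvections
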