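import Cfsg.Agent.Lib.RootSub.RankOnePair

/-! A conjugation invariant family of subgroups of a linear group whose pairs generate unipotent groups
generates a unipotent group. (helper6) -/

set_option autoImplicit false
set_option linter.unusedSectionVars false

namespace CfsgLib.RootSub.UnipotentPairs

open Cfsg Subgroup
open scoped Pointwise

variable {k : Type*} [Field k] {M : Type*} [AddCommGroup M] [Module k M]

local notation "GLM" => LinearMap.GeneralLinearGroup k M
local notation "EndM" => Module.End k M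

/-- The displacement of a linear automorphism. -/
def d (g : GLM) : EndM := (g : M →ₗ[k] M) - 1

theorem d_mul (g h : GLM) : d (g * h) = d g + d h + d g * d h := by
  simp only [d, Units.val_mul, sub_mul, mul_sub, one_mul, mul_one]; abel

theorem d_one : d (1 : GLM) = 0 := by simp [d]

/-- The span of the displacements of a subgroup. -/
def N (H : Subgroup GLM) : Submodule k EndM := Submodule.span k (d '' (H : Set GLM))

theorem d_mem {H : Subgroup GLM} {g : GLM} (hg : g ∈ H) : d g ∈ N H :=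
  Submodule.subset_span ⟨g, hg, rfl⟩

theorem N_mono {H K : Subgroup GLM} (h : H ≤ K) : N H ≤ N K := Submodule.span_mono (Set.image_mono h)

theorem N_mul (H : Subgroup GLM) : N H * N H ≤ N H := by
  rw [N, Submodule.span_mul_span, Submodule.span_le]
  rintro _ ⟨_, ⟨g, hg, rfl⟩, _, ⟨h, hh, rfl⟩, rfl⟩
  have e : d g * d h = d (g * h) - d g - d h := by rw [d_mul]; abel
  show d g * d h ∈ N H
  rw [e]
  exact sub_mem (sub_mem (d_mem (mul_mem hg hh)) (d_mem hg)) (d_mem hh)

theorem list_prod_mem (P : Submodule k EndM) :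
    ∀ l : List EndM, (∀ x ∈ l, x ∈ P) → l.prod ∈ P ^ l.length := by
  intro l
  induction l with
  | nil => intro _; simp only [List.prod_nil, List.length_nil, pow_zero]; exact Submodule.one_le.mp le_rfl
  | cons a l ih =>
    intro h
    rw [List.prod_cons, List.length_cons, pow_succ']
    exact Submodule.mul_mem_mul (h a (List.mem_cons_self ..)) (ih fun x hx => h x (List.mem_cons_of_mem a hx))

theorem map_coe (l : List GLM) :
    ((do let a ← l; pure (a : M →ₗ[k] M)) : List (M →ₗ[k] M)).map (fun g => g - 1) = l.map d := by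
  induction l with
  | nil => rfl
  | cons a l ih =>
    simp only [List.map_cons] at ih ⊢
    simp [List.flatMap_cons, d] at ih ⊢
    simpa using ih

theorem unipotent_iff (H : Subgroup GLM) : IsUnipotentOn H ↔ ∃ n, N H ^ n = ⊥ := by
  constructor
  · rintro ⟨n, hn⟩
    refine ⟨n, ?_⟩
    rw [N, Submodule.span_pow, Submodule.span_eq_bot]
    intro x hx
    obtain ⟨f, rfl⟩ := Set.mem_pow.mp hx
    choose g hg hge using fun i : Fin n => (f i).2
    have := hn (List.ofFn g) (by simp only [List.mem_ofFn]; rintro _ ⟨i, rfl⟩; exact hg i) (by simp)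
    rw [map_coe, List.map_ofFn] at this
    have e : (fun i => ((f i : EndM))) = fun i => d (g i) := funext fun i => (hge i).symm
    rw [e]
    exact this
  · rintro ⟨n, hn⟩
    refine ⟨n, fun l hl hlen => ?_⟩
    have h1 := list_prod_mem (N H) (l.map d) (by
      simp only [List.mem_map]; rintro _ ⟨g, hg, rfl⟩; exact d_mem (hl g hg))
    rw [List.length_map, hlen, hn, Submodule.mem_bot] at h1
    rw [map_coe]
    exact h1

theorem unip_of_le {H K : Subgroup GLM} (hK : IsUnipotentOn K) (h : N H ≤ N K) : IsUnipotentOn H := by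
  obtain ⟨n, hn⟩ := (unipotent_iff K).mp hK
  exact (unipotent_iff H).mpr ⟨n, le_bot_iff.mp (hn ▸ pow_le_pow_left' h n)⟩

theorem d_inv_mem {P : Submodule k EndM} (hP : P * P ≤ P) {g : GLM} (hg : d g ∈ P) {n : ℕ}
    (hn : d g ^ n = 0) : d g⁻¹ ∈ P := by
  have hrec : d g⁻¹ = -d g + -d g * d g⁻¹ := by
    have h0 : d (g * g⁻¹) = 0 := by rw [mul_inv_cancel, d_one]
    rw [d_mul] at h0
    rw [neg_mul]
    linear_combination (norm := abel) h0
  have hpow : ∀ j : ℕ, (-d g) ^ (j + 1) ∈ P := by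
    intro j
    induction j with
    | zero => simpa using neg_mem hg
    | succ j ih => rw [pow_succ]; exact hP (Submodule.mul_mem_mul ih (neg_mem hg))
  have key : ∀ j : ℕ, ∃ s ∈ P, d g⁻¹ = s + (-d g) ^ (j + 1) * d g⁻¹ := by
    intro j
    induction j with
    | zero => exact ⟨-d g, neg_mem hg, by simpa using hrec⟩
    | succ j ih =>
      obtain ⟨s, hs, e⟩ := ih
      refine ⟨s + (-d g) ^ (j + 2), add_mem hs (hpow _), ?_⟩
      conv_lhs => rw [e, hrec]
      rw [pow_succ (-d g) (j + 1), mul_add, mul_assoc, add_assoc]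
  obtain ⟨s, hs, e⟩ := key n
  have hz : (-d g) ^ (n + 1) = 0 := by rw [neg_pow, pow_succ (d g), hn, zero_mul, mul_zero]
  rw [e, hz, zero_mul, add_zero]
  exact hs

theorem N_closure {P : Submodule k EndM} (hP : P * P ≤ P) {n : ℕ} (hn : P ^ n = ⊥) {s : Set GLM}
    (hs : ∀ g ∈ s, d g ∈ P) : N (closure s) ≤ P := by
  rw [N, Submodule.span_le]
  rintro _ ⟨g, hg, rfl⟩
  induction hg using closure_induction with
  | mem x hx => exact hs x hx
  | one => rw [d_one]; exact P.zero_mem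
  | mul x y _ _ hx hy => rw [d_mul]; exact add_mem (add_mem hx hy) (hP (Submodule.mul_mem_mul hx hy))
  | inv x _ hx =>
    refine d_inv_mem hP hx (n := n) ?_
    have := Submodule.pow_mem_pow P hx n
    rwa [hn, Submodule.mem_bot] at this

theorem unip_sup {I K : Subgroup GLM} (hI : IsUnipotentOn I) (hK : IsUnipotentOn K)
    (hn : K ≤ normalizer (I : Set GLM)) : IsUnipotentOn (I ⊔ K) := by
  obtain ⟨p, hp⟩ := (unipotent_iff I).mp hI
  obtain ⟨q, hq⟩ := (unipotent_iff K).mp hK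
  set T : Submodule k EndM := Submodule.span k ((fun g : GLM => (g : EndM)) '' (I ⊔ K : Subgroup GLM)) with hT
  have hmemT : ∀ {g : GLM}, g ∈ I ⊔ K → (g : EndM) ∈ T := fun {g} hg => Submodule.subset_span ⟨g, hg, rfl⟩
  have h1T : (1 : EndM) ∈ T := by simpa using hmemT (one_mem (I ⊔ K))
  have hdT : ∀ {g : GLM}, g ∈ I ⊔ K → d g ∈ T := fun {g} hg => sub_mem (hmemT hg) h1T
  have hTT : T * T ≤ T := by
    rw [hT, Submodule.span_mul_span, Submodule.span_le]
    rintro _ ⟨_, ⟨g, hg, rfl⟩, _, ⟨h, hh, rfl⟩, rfl⟩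
    exact Submodule.subset_span ⟨g * h, mul_mem hg hh, by simp⟩
  have hnorm : I ⊔ K ≤ normalizer (I : Set GLM) := sup_le le_normalizer hn
  have hTN : T * N I ≤ N I * T := by
    rw [hT, N, Submodule.span_mul_span, Submodule.span_le]
    rintro _ ⟨_, ⟨g, hg, rfl⟩, _, ⟨i, hi, rfl⟩, rfl⟩
    have e : (g : EndM) * d i = d (g * i * g⁻¹) * (g : EndM) := by
      simp only [d, Units.val_mul, mul_sub, sub_mul, mul_one, one_mul, mul_assoc, Units.inv_mul]
    show (g : EndM) * d i ∈ _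
    rw [e]
    exact Submodule.mul_mem_mul (d_mem ((mem_normalizer_iff.mp (hnorm hg) i).mp hi)) (hmemT hg)
  set J := N I * T with hJ
  have hJT : J * T ≤ J := by rw [hJ, mul_assoc]; exact mul_le_mul_right hTT _
  have hTJ : T * J ≤ J := by
    rw [hJ, ← mul_assoc]
    calc T * N I * T ≤ N I * T * T := mul_le_mul_left hTN _
      _ ≤ _ := hJT
  have hJpow : ∀ j, J ^ (j + 1) ≤ N I ^ (j + 1) * T := by
    intro j
    induction j with
    | zero => simp [hJ]
    | succ j ih =>
      calc J ^ (j + 2) = J ^ (j + 1) * J := pow_succ _ _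
        _ ≤ N I ^ (j + 1) * T * J := mul_le_mul_left ih _
        _ ≤ N I ^ (j + 1) * J := by rw [mul_assoc]; exact mul_le_mul_right hTJ _
        _ = _ := by rw [hJ, ← mul_assoc, ← pow_succ]
  have hJ0 : J ^ (p + 1) = ⊥ := by
    refine le_bot_iff.mp ((hJpow p).trans ?_)
    rw [pow_succ, hp, Submodule.bot_mul, Submodule.bot_mul]
  have hle : N (I ⊔ K) ≤ N K ⊔ J := by
    rw [N, Submodule.span_le]
    rintro _ ⟨g, hg, rfl⟩
    rw [coe_mul_of_right_le_normalizer_left I K hn] at hg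
    obtain ⟨i, hi, c, hc, rfl⟩ := hg
    have e : d (i * c) = d c + d i * (c : EndM) := by
      simp only [d, Units.val_mul, sub_mul, one_mul]; abel
    rw [e]
    exact Submodule.add_mem_sup (d_mem hc) (Submodule.mul_mem_mul (d_mem hi) (hmemT (mem_sup_right hc)))
  have hNKT : N K ≤ T := by
    rw [N, Submodule.span_le]; rintro _ ⟨g, hg, rfl⟩; exact hdT (mem_sup_right hg)
  have hJleT : J ≤ T := by
    rw [hJ]
    refine (mul_le_mul_left ?_ _).trans hTT
    rw [N, Submodule.span_le]; rintro _ ⟨g, hg, rfl⟩; exact hdT (mem_sup_left hg)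
  have hpow : ∀ m, (N K ⊔ J) ^ (m + 1) ≤ N K ^ (m + 1) ⊔ J := by
    intro m
    induction m with
    | zero => simp
    | succ m ih =>
      calc (N K ⊔ J) ^ (m + 2) = (N K ⊔ J) ^ (m + 1) * (N K ⊔ J) := pow_succ _ _
        _ ≤ (N K ^ (m + 1) ⊔ J) * (N K ⊔ J) := mul_le_mul_left ih _
        _ ≤ _ := by
          rw [Submodule.sup_mul, Submodule.mul_sup, Submodule.mul_sup, ← pow_succ]
          refine sup_le (sup_le le_sup_left (le_trans ?_ le_sup_right)) (le_trans ?_ le_sup_right)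
          · refine le_trans (mul_le_mul_left ?_ _) hTJ
            clear ih
            induction m with
            | zero => simpa using hNKT
            | succ m ih => rw [pow_succ]; exact (mul_le_mul' ih hNKT).trans hTT
          · exact sup_le ((mul_le_mul_right hNKT _).trans hJT) ((mul_le_mul_right hJleT _).trans hJT)
  refine (unipotent_iff _).mpr ⟨(q + 1) * (p + 1), le_bot_iff.mp ?_⟩
  rw [pow_mul]
  refine (pow_le_pow_left' ((pow_le_pow_left' hle (q + 1)).trans (hpow q)) (p + 1)).trans ?_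
  rw [pow_succ (N K), hq, Submodule.bot_mul, bot_sup_eq, hJ0]

/-- The subgroup generated by a family of subgroups. -/
def gen (V : Set (Subgroup GLM)) : Subgroup GLM := closure (⋃ A ∈ V, (A : Set GLM))

theorem le_gen {V : Set (Subgroup GLM)} {A : Subgroup GLM} (hA : A ∈ V) : A ≤ gen V :=
  fun _ ha => subset_closure (Set.mem_biUnion hA ha)

theorem gen_le {V : Set (Subgroup GLM)} {H : Subgroup GLM} (h : ∀ A ∈ V, A ≤ H) : gen V ≤ H :=
  (closure_le H).mpr (Set.iUnion₂_subset h)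

theorem gen_eq (V : Set (Subgroup GLM)) : gen V = ⨆ A ∈ V, A :=
  le_antisymm (gen_le fun A hA => le_biSup (fun A => A) hA) (iSup₂_le fun _ hA => le_gen hA)

theorem main [FiniteDimensional k M] (W : Set (Subgroup GLM)) (hWW : ∀ A ∈ W, ∀ B ∈ W, IsUnipotentOn (A ⊔ B))
    (hWconj : ∀ A ∈ W, ∀ B ∈ W, ∀ b ∈ B, conjBy A b ∈ W) : IsUnipotentOn (gen W) := by
  classical
  let Good : Set (Subgroup GLM) → Prop := fun V => V ⊆ W ∧ IsUnipotentOn (gen V) ∧
    ∀ A ∈ W, (∀ a ∈ A, d a ∈ N (gen V)) → A ∈ V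
  -- maximal members
  let Max : Set (Subgroup GLM) → Prop := fun V => Good V ∧ ∀ V', Good V' → V ⊆ V' → V' = V
  have hclose : ∀ V, V ⊆ W → IsUnipotentOn (gen V) → ∃ V', Good V' ∧ V ⊆ V' ∧ N (gen V') = N (gen V) := by
    intro V hVW hV
    refine ⟨{A | A ∈ W ∧ ∀ a ∈ A, d a ∈ N (gen V)}, ?_, fun A hA => ⟨hVW hA, fun a ha => d_mem (le_gen hA ha)⟩, ?_⟩
    all_goals
      obtain ⟨n, hn⟩ := (unipotent_iff _).mp hV
      have e1 : N (gen {A | A ∈ W ∧ ∀ a ∈ A, d a ∈ N (gen V)}) ≤ N (gen V) := by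
        refine N_closure (N_mul _) hn ?_
        intro g hg
        obtain ⟨A, hA, hgA⟩ := Set.mem_iUnion₂.mp hg
        exact hA.2 g hgA
      have e2 : N (gen V) ≤ N (gen {A | A ∈ W ∧ ∀ a ∈ A, d a ∈ N (gen V)}) :=
        N_mono (gen_le fun A hA => le_gen ⟨hVW hA, fun a ha => d_mem (le_gen hA ha)⟩)
    · exact ⟨fun A hA => hA.1, unip_of_le hV e1, fun A hA h => ⟨hA, fun a ha => e1 (h a ha)⟩⟩
    · exact le_antisymm e1 e2
  have hmax : ∀ V, V ⊆ W → IsUnipotentOn (gen V) → ∃ V', Max V' ∧ V ⊆ V' := by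
    intro V hVW hV
    obtain ⟨V₁, h1, h1', -⟩ := hclose V hVW hV
    obtain ⟨V₂, ⟨h2, h2'⟩, hmax2⟩ := (wellFounded_gt (α := Submodule k EndM)).has_min
      ((fun V' => N (gen V')) '' {V' | Good V' ∧ V ⊆ V'}) ⟨_, V₁, ⟨h1, h1'⟩, rfl⟩ |> fun ⟨P, ⟨V₂, hV₂, hP⟩, hm⟩ =>
        (⟨V₂, hV₂, fun V' hV' => by
          have := hm _ ⟨V', hV', rfl⟩
          rw [← hP] at this
          exact this⟩ :
          ∃ V₂, (Good V₂ ∧ V ⊆ V₂) ∧ ∀ V', Good V' ∧ V ⊆ V' → ¬ N (gen V₂) < N (gen V'))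
    refine ⟨V₂, ⟨h2, fun V' hV' hsub => ?_⟩, h2'⟩
    refine Set.Subset.antisymm (fun A hA => h2.2.2 A (hV'.1 hA) fun a ha => ?_) hsub
    have := eq_of_le_of_not_lt (N_mono (gen_le fun B hB => le_gen (hsub hB))) (hmax2 V' ⟨hV', h2'.trans hsub⟩)
    rw [this]
    exact d_mem (le_gen hA ha)
  -- any two maximal members coincide
  have huniq : ∀ V₁ V₂, Max V₁ → Max V₂ → V₁ = V₂ := by
    by_contra hcon
    push Not at hcon
    obtain ⟨W₁, W₂, hW₁, hW₂, hne0⟩ := hcon
    obtain ⟨P, ⟨⟨V₁, V₂⟩, ⟨hV₁, hV₂, hne⟩, hP⟩, hPmax⟩ :=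
      (wellFounded_gt (α := Submodule k EndM)).has_min
        ((fun p : Set (Subgroup GLM) × Set (Subgroup GLM) => N (gen (p.1 ∩ p.2))) ''
          {p | Max p.1 ∧ Max p.2 ∧ p.1 ≠ p.2}) ⟨_, (W₁, W₂), ⟨hW₁, hW₂, hne0⟩, rfl⟩
    simp only at hP hne hV₁ hV₂
    set I := V₁ ∩ V₂ with hI
    have hIu : IsUnipotentOn (gen I) :=
      unip_of_le hV₁.1.2.1 (N_mono (gen_le fun A hA => le_gen hA.1))
    have hIclosed : ∀ A ∈ W, (∀ a ∈ A, d a ∈ N (gen I)) → A ∈ I := fun A hA h =>
      ⟨hV₁.1.2.2 A hA fun a ha => N_mono (gen_le fun B hB => le_gen hB.1) (h a ha),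
       hV₂.1.2.2 A hA fun a ha => N_mono (gen_le fun B hB => le_gen hB.2) (h a ha)⟩
    have step : ∀ V, Max V → I ⊆ V → ¬ V ⊆ I →
        ∃ A ∈ V, A ∉ I ∧ A ≤ normalizer (gen I : Set GLM) := by
      intro V hV hIV hVI
      obtain ⟨n, hn⟩ := (unipotent_iff _).mp hV.1.2.1
      set P := N (gen V) with hPdef
      set Q := N (gen I) with hQdef
      have hQP : Q ≤ P := N_mono (gen_le fun B hB => le_gen (hIV hB))
      have hPP : P * P ≤ P := N_mul _
      have hpow1 : ∀ j, P ^ (j + 1) ≤ P := by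
        intro j
        induction j with
        | zero => simp
        | succ j ih => rw [pow_succ]; exact (mul_le_mul_left ih _).trans hPP
      have hex : ∃ j, ∀ A ∈ W, (∀ a ∈ A, d a ∈ Q ⊔ P ^ (j + 1)) → A ∈ I := by
        refine ⟨n, fun A hA h => hIclosed A hA fun a ha => ?_⟩
        have := h a ha
        rwa [pow_succ, hn, Submodule.bot_mul, sup_bot_eq] at this
      have h0 : ¬ ∀ A ∈ W, (∀ a ∈ A, d a ∈ Q ⊔ P ^ (0 + 1)) → A ∈ I := fun h =>
        hVI fun A hA => h A (hV.1.1 hA) fun a ha => by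
          rw [zero_add, pow_one]; exact Submodule.mem_sup_right (d_mem (le_gen hA ha))
      obtain ⟨j, hj⟩ : ∃ j, Nat.find hex = j + 1 :=
        Nat.exists_eq_succ_of_ne_zero fun h => h0 (h ▸ Nat.find_spec hex)
      have hnext := Nat.find_spec hex
      rw [hj] at hnext
      have hcur := Nat.find_min hex (show j < Nat.find hex by omega)
      push Not at hcur
      obtain ⟨A, hA, hAd, hAI⟩ := hcur
      set Lj := Q ⊔ P ^ (j + 1) with hLj
      have hLP : Lj ≤ P := sup_le hQP (hpow1 j)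
      have hAV : A ∈ V := hV.1.2.2 A hA fun a ha => hLP (hAd a ha)
      have hP2 : ∀ {x y : EndM}, x ∈ P ^ (j + 1) → y ∈ P → x * y ∈ P ^ (j + 2) ∧ y * x ∈ P ^ (j + 2) := by
        intro x y hx hy
        constructor
        · rw [pow_succ]; exact Submodule.mul_mem_mul hx hy
        · rw [pow_succ']; exact Submodule.mul_mem_mul hy hx
      have hP2le : P ^ (j + 2) ≤ P ^ (j + 1) := by
        rw [pow_succ, pow_succ, mul_assoc]; exact mul_le_mul_right hPP _
      have hQLj : ∀ {q l : EndM}, q ∈ Q → l ∈ Lj → q * l ∈ Q ⊔ P ^ (j + 2) := by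
        intro q l hq hl
        obtain ⟨y, hy, z, hz, rfl⟩ := Submodule.mem_sup.mp hl
        rw [mul_add]
        exact Submodule.add_mem_sup (N_mul _ (Submodule.mul_mem_mul hq hy)) (hP2 hz (hQP hq)).2
      have hLL : Lj * Lj ≤ Lj := by
        rw [Submodule.mul_le]
        intro x hx y hy
        obtain ⟨x₁, hx₁, x₂, hx₂, rfl⟩ := Submodule.mem_sup.mp hx
        rw [add_mul]
        refine add_mem ((sup_le_sup_left hP2le Q) (hQLj hx₁ hy)) (Submodule.mem_sup_right (hP2le ?_))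
        exact (hP2 hx₂ (hLP hy)).1
      have hnorm : ∀ a ∈ A, ∀ B ∈ I, conjBy B a ∈ I := by
        intro a ha B hB
        refine hnext _ (hWconj B (hV₁.1.1 hB.1) A hA a ha) ?_
        rintro _ ⟨b, hb, rfl⟩
        have hw : d a ∈ Lj := hAd a ha
        have hwi : d a⁻¹ ∈ Lj := hAd a⁻¹ (inv_mem ha)
        have hx : d b ∈ Q := d_mem (le_gen hB hb)
        have e : d (a * b * a⁻¹) =
            d b + (d a * d b - d b * d a) + (d a * d b - d b * d a) * d a⁻¹ := by
          have h1 : d (a * b * a⁻¹) = (a : EndM) * d b * (a⁻¹ : GLM) := by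
            simp only [d, Units.val_mul, mul_sub, sub_mul, mul_one, Units.mul_inv]
          have h2 : d a * d b - d b * d a = (a : EndM) * d b - d b * (a : EndM) := by
            simp only [d, mul_sub, sub_mul, mul_one, one_mul]; abel
          rw [h1, h2]
          simp only [show d a⁻¹ = ((a⁻¹ : GLM) : EndM) - 1 from rfl, mul_sub, sub_mul, mul_one, mul_assoc,
            Units.mul_inv]
          abel
        rw [show (MulAut.conj a).toMonoidHom b = a * b * a⁻¹ from rfl, e]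
        obtain ⟨y, hy, z, hz, hyz⟩ := Submodule.mem_sup.mp hw
        have hc : d a * d b - d b * d a = (y * d b - d b * y) + (z * d b - d b * z) := by
          rw [← hyz, add_mul, mul_add]; abel
        have hq : y * d b - d b * y ∈ Q :=
          sub_mem (N_mul _ (Submodule.mul_mem_mul hy hx)) (N_mul _ (Submodule.mul_mem_mul hx hy))
        have hr : z * d b - d b * z ∈ P ^ (j + 2) :=
          sub_mem (hP2 hz (hQP hx)).1 (hP2 hz (hQP hx)).2
        rw [hc, add_mul]
        refine add_mem (add_mem (Submodule.mem_sup_left hx) (Submodule.add_mem_sup hq hr)) (add_mem (hQLj hq hwi) ?_)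
        refine Submodule.mem_sup_right ?_
        have hstep : P ^ (j + 2) * P ≤ P ^ (j + 2) := by
          rw [pow_succ _ (j + 1), mul_assoc]; exact mul_le_mul_right hPP _
        exact hstep (Submodule.mul_mem_mul hr (hLP hwi))
      refine ⟨A, hAV, hAI, fun a ha => ?_⟩
      have hfix : ∀ c ∈ A, ∀ x ∈ gen I, c * x * c⁻¹ ∈ gen I := by
        intro c hc x hx
        have : gen I ≤ (gen I).comap (MulAut.conj c).toMonoidHom := gen_le fun B hB b hb =>
          le_gen (hnorm c hc B hB) ⟨b, hb, rfl⟩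
        exact this hx
      rw [mem_normalizer_iff]
      refine fun x => ⟨hfix a ha x, fun hx => ?_⟩
      simpa [mul_assoc] using hfix a⁻¹ (inv_mem ha) _ hx
    have hne1 : ¬ V₁ ⊆ I := fun h => hne (hV₁.2 V₂ hV₂.1 fun A hA => (h hA).2).symm
    have hne2 : ¬ V₂ ⊆ I := fun h => hne (hV₂.2 V₁ hV₁.1 fun A hA => (h hA).1)
    obtain ⟨A₁, hA₁, hA₁I, hA₁n⟩ := step V₁ hV₁ Set.inter_subset_left hne1
    obtain ⟨A₂, hA₂, hA₂I, hA₂n⟩ := step V₂ hV₂ Set.inter_subset_right hne2
    have hbig : IsUnipotentOn (gen (insert A₁ (insert A₂ I))) := by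
      refine unip_of_le (unip_sup hIu (hWW A₁ (hV₁.1.1 hA₁) A₂ (hV₂.1.1 hA₂)) (sup_le hA₁n hA₂n)) (N_mono (gen_le ?_))
      rintro A (rfl | rfl | hA)
      · exact le_sup_left.trans le_sup_right
      · exact le_sup_right.trans le_sup_right
      · exact (le_gen hA).trans le_sup_left
    obtain ⟨V₃, hV₃, hsub⟩ := hmax (insert A₁ (insert A₂ I)) (by
      rintro A (rfl | rfl | hA)
      exacts [hV₁.1.1 hA₁, hV₂.1.1 hA₂, hV₁.1.1 hA.1]) hbig
    have heq : ∀ V A, Max V → I ⊆ V → A ∈ V → A ∈ V₃ → A ∉ I → A ∈ W → V₃ = V := by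
      intro V A hV hIV hAV hA3 hAI hAW
      by_contra hneq
      refine hPmax _ ⟨(V₃, V), ⟨hV₃, hV, hneq⟩, rfl⟩ ?_
      show N (gen (V₃ ∩ V)) > P
      rw [gt_iff_lt, ← hP]
      have hle : N (gen I) ≤ N (gen (V₃ ∩ V)) := N_mono (gen_le fun B hB =>
        le_gen (show B ∈ V₃ ∩ V from ⟨hsub (Set.mem_insert_of_mem _ (Set.mem_insert_of_mem _ hB)), hIV hB⟩))
      refine lt_of_le_of_ne hle fun e => hAI (hIclosed A hAW fun a ha => ?_)
      rw [e]
      exact d_mem (le_gen (show A ∈ V₃ ∩ V from ⟨hA3, hAV⟩) ha)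
    exact hne ((heq V₁ A₁ hV₁ Set.inter_subset_left hA₁ (hsub (Set.mem_insert _ _)) hA₁I (hV₁.1.1 hA₁)).symm.trans
      (heq V₂ A₂ hV₂ Set.inter_subset_right hA₂ (hsub (Set.mem_insert_of_mem _ (Set.mem_insert _ _))) hA₂I (hV₂.1.1 hA₂)))
  obtain ⟨V₀, hV₀, -⟩ := hmax ∅ (Set.empty_subset _) ((unipotent_iff _).mpr ⟨1, by
    rw [pow_one, N, Submodule.span_eq_bot]
    rintro _ ⟨g, hg, rfl⟩
    have : g = 1 := by simpa [gen] using hg
    rw [this, d_one]⟩)
  refine unip_of_le hV₀.1.2.1 (N_mono (gen_le fun A hA => ?_))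
  obtain ⟨V, hV, hsub⟩ := hmax {A} (Set.singleton_subset_iff.mpr hA)
    (unip_of_le (hWW A hA A hA) (N_mono (gen_le fun B hB => by rw [Set.mem_singleton_iff.mp hB]; exact le_sup_left)))
  exact le_gen (huniq V V₀ hV hV₀ ▸ hsub rfl)

end CfsgLib.RootSub.UnipotentPairs
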